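/- Words in reflections over the field with nine elements, evaluated in the model monoid. -/
import Cfsg.Agent.H41.LDKit2
import Mathlib.Algebra.QuadraticAlgebra.Basic

set_option autoImplicit false

open Matrix Cfsg Cfsg.Geo H19 H41.LD

namespace H5.LD

universe u

abbrev F9 : Type := QuadraticAlgebra (ZMod 3) 2 0

abbrev M4 : Type := Matrix (Fin 4) (Fin 4) F9

def dig (d : ℕ) : F9 := ⟨(d % 3 : ℕ), (d / 3 % 3 : ℕ)⟩

def mt (c : ℕ) : M4 := Matrix.of fun i j => dig (c / 9 ^ (4 * i.val + j.val))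

def mm (A m m' : M4) : M4 := m + m' + m * A * m'

def slp (A : M4) : List M4 → List (ℕ × ℕ × ℕ) → M4 → Bool
  | S, [], T => decide (S.headD 0 = T)
  | S, (a, b, c) :: p, T => decide (mm A (S.getD a 0) (S.getD b 0) = mt c) && slp A (mt c :: S) p T

theorem slp_sound {A : M4} {P : M4 → Prop} (h0 : P 0) (hm : ∀ m m', P m → P m' → P (mm A m m'))
    (p : List (ℕ × ℕ × ℕ)) : ∀ (S : List M4) (T : M4), (∀ m ∈ S, P m) → slp A S p T = true → P T := by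
  have hg : ∀ (S : List M4) (a : ℕ), (∀ m ∈ S, P m) → P (S.getD a 0) := fun S a h => by
    rw [List.getD_eq_getElem?_getD]
    cases e : S[a]? with
    | none => exact h0
    | some m => exact h m (List.mem_of_getElem? e)
  induction p with
  | nil =>
    intro S T h e
    have e : S.headD 0 = T := of_decide_eq_true e
    cases S with
    | nil => exact e ▸ h0
    | cons a S => exact e ▸ h a List.mem_cons_self
  | cons t p ih =>
    obtain ⟨a, b, c⟩ := t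
    intro S T h e
    rw [slp, Bool.and_eq_true, decide_eq_true_eq] at e
    refine ih _ T (fun m hm' => ?_) e.2
    rcases List.mem_cons.1 hm' with rfl | hm'
    · exact e.1 ▸ hm _ _ (hg S a h) (hg S b h)
    · exact h m hm'

variable {K : Type u} [Field K] {n : ℕ} {G : Subgroup (GL (Fin n) K)}

theorem exists_f9 (h3 : (3 : K) = 0) {i : K} (hi : i ^ 2 = -1) :
    ∃ ρ : F9 →+* K, ρ ⟨0, 1⟩ = i := by
  have : Fact (Nat.Prime 3) := ⟨Nat.prime_three⟩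
  have : CharP K 3 := (CharP.charP_iff_prime_eq_zero Nat.prime_three).2 (by exact_mod_cast h3)
  let _ := ZMod.algebra K 3
  have e : ∀ (a : ZMod 3) (x : K), a • x = (a.val : K) * x := fun a x => by
    rw [Algebra.smul_def, ZMod.natCast_val]; rfl
  refine ⟨(QuadraticAlgebra.lift (R := ZMod 3) (a := 2) (b := 0) ⟨i, ?_⟩).toRingHom, ?_⟩
  · rw [e, e]
    change _ = ((2 : ℕ) : K) * 1 + ((0 : ℕ) : K) * i
    push_cast
    linear_combination hi - h3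
  · change (0 : ZMod 3) • (1 : K) + (1 : ZMod 3) • i = _
    simp

theorem f9_ne (ρ : F9 →+* K) {a : F9} (ha : a ≠ 0) : ρ a ≠ 0 := fun e => by
  have : ∀ a b : ZMod 3, (⟨a, b⟩ : F9) ≠ 0 → (⟨a, b⟩ : F9) ^ 8 = 1 := by decide +kernel
  have := congrArg ρ (this a.re a.im ha)
  rw [map_pow, map_one] at this
  change ρ a ^ 8 = 1 at this
  simp [e] at this

theorem vals (ρ : F9 →+* K) {i : K} (h : ρ ⟨0, 1⟩ = i) : ρ ⟨0, 0⟩ = 0 ∧ ρ ⟨1, 0⟩ = 1 ∧ ρ ⟨2, 0⟩ = -1 ∧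
    ρ ⟨0, 2⟩ = -i ∧ ρ ⟨1, 1⟩ = 1 + i ∧ ρ ⟨2, 1⟩ = -1 + i ∧ ρ ⟨1, 2⟩ = 1 - i ∧ ρ ⟨2, 2⟩ = -1 - i := by
  subst h
  refine ⟨map_zero ρ, map_one ρ, ?_, ?_, ?_, ?_, ?_, ?_⟩
  · rw [show (⟨2, 0⟩ : F9) = -1 by decide, map_neg, map_one]
  · rw [show (⟨0, 2⟩ : F9) = -⟨0, 1⟩ by decide, map_neg]
  · rw [show (⟨1, 1⟩ : F9) = 1 + ⟨0, 1⟩ by decide, map_add, map_one]
  · rw [show (⟨2, 1⟩ : F9) = -1 + ⟨0, 1⟩ by decide, map_add, map_neg, map_one]
  · rw [show (⟨1, 2⟩ : F9) = 1 - ⟨0, 1⟩ by decide, map_sub, map_one]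
  · rw [show (⟨2, 2⟩ : F9) = -1 - ⟨0, 1⟩ by decide, map_sub, map_neg, map_one]

/-- The vector with coordinates `w` over the small field. -/
def cb (ρ : F9 →+* K) (e : Fin 3 → Fin n → K) (w : Fin 3 → F9) : Fin n → K :=
  ρ (w 0) • e 0 + ρ (w 1) • e 1 + ρ (w 2) • e 2

/-- The matrix of the reflection with coordinates `w, d` and last coordinates `c`. -/
def rm (w d : Fin 3 → F9) (c : F9) : M4 := -vecMulVec ![w 0, w 1, w 2, c] ![d 0, d 1, d 2, c]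

def dm (a b : F9) : M4 := diagonal ![a, a, a, b]

section model

variable (ρ : F9 →+* K) (e ε : Fin 3 → Fin n → K) (f χ : Fin n → K)

def UU : Matrix (Fin n) (Fin 4) K := (Matrix.of ![e 0, e 1, e 2, f])ᵀ

def PP : Matrix (Fin 4) (Fin n) K := Matrix.of ![ε 0, ε 1, ε 2, χ]

theorem UU_mulVec (w : Fin 4 → K) :
    UU e f *ᵥ w = w 0 • e 0 + w 1 • e 1 + w 2 • e 2 + w 3 • f := by
  ext k; simp [UU, mulVec, dotProduct, Fin.sum_univ_four, mul_comm]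

theorem vecMul_PP (w : Fin 4 → K) :
    w ᵥ* PP ε χ = w 0 • ε 0 + w 1 • ε 1 + w 2 • ε 2 + w 3 • χ := by
  ext k; simp [PP, vecMul, dotProduct, Fin.sum_univ_four]

def Md (G : Subgroup (GL (Fin n) K)) (m : M4) : Prop := In G (1 + UU e f * m.map ρ * PP ε χ)

variable {ρ e ε f χ}

theorem PP_UU (hd : Dual e ε) (hf : ∀ i, ε i ⬝ᵥ f = 0) (hχ : ∀ i, χ ⬝ᵥ e i = 0) {κ : F9}
    (hκ : χ ⬝ᵥ f = ρ κ) : PP ε χ * UU e f = (dm 1 κ).map ρ := by
  ext i j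
  have : (PP ε χ * UU e f) i j = ![ε 0, ε 1, ε 2, χ] i ⬝ᵥ ![e 0, e 1, e 2, f] j := rfl
  rw [this]
  fin_cases i <;> fin_cases j <;> simp [dm, hd.same, hd.ne, hf, hχ, hκ]

theorem Md.zero : Md ρ e ε f χ G 0 := by simpa [Md] using In.one G

theorem Md.mul {A m m' : M4} (hA : PP ε χ * UU e f = A.map ρ) (h : Md ρ e ε f χ G m)
    (h' : Md ρ e ε f χ G m') : Md ρ e ε f χ G (mm A m m') := by
  have := In.mul h h'
  rw [mm_mul, hA] at this
  unfold Md mm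
  rwa [Matrix.map_add _ (map_add ρ), Matrix.map_add _ (map_add ρ), Matrix.map_mul, Matrix.map_mul]

theorem map_vmv (a b : Fin 4 → F9) : (vecMulVec a b).map ρ = N (ρ ∘ a, ρ ∘ b) := by
  ext i j; simp [N, vecMulVec_apply]

theorem Md.rf {w d : Fin 3 → F9} {c : F9}
    (h : In G (1 - N (cb ρ e w + ρ c • f, cb ρ ε d + ρ c • χ))) : Md ρ e ε f χ G (rm w d c) := by
  unfold Md rm
  rw [Matrix.map_neg _ (map_neg ρ), map_vmv, Matrix.mul_neg, Matrix.neg_mul, ← N_up, up, UU_mulVec,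
    vecMul_PP, ← sub_eq_add_neg]
  exact h

end model

section fin

variable {G : Subgroup (GL (Fin 5) K)} {ρ : F9 →+* K} {e ε : Fin 3 → Fin 5 → K} {x : R 5 K}

theorem run (hd : Dual e ε) (hx : Rf G x) {v ψ : Fin 3 → F9} (hv : ∀ i, ε i ⬝ᵥ x.1 = ρ (v i))
    (hψ : ∀ i, x.2 ⬝ᵥ e i = ρ (ψ i)) {L : List ((Fin 3 → F9) × (Fin 3 → F9))}
    (hL : ∀ g ∈ L, In G (1 - N (cb ρ e g.1, cb ρ ε g.2))) {κ : F9}
    (hκ : κ = 2 - (v 0 * ψ 0 + v 1 * ψ 1 + v 2 * ψ 2)) {p : List (ℕ × ℕ × ℕ)} {T : M4}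
    (h : slp (dm 1 κ) (rm v ψ 1 :: L.map fun g => rm g.1 g.2 0) p T = true) :
    ∃ f χ, (∀ i, ε i ⬝ᵥ f = 0) ∧ (∀ i, χ ⬝ᵥ e i = 0) ∧ χ ⬝ᵥ f = ρ κ ∧ Md ρ e ε f χ G T := by
  have hf : ∀ i, ε i ⬝ᵥ (x.1 - cb ρ e v) = 0 := fun i => by
    fin_cases i <;> simp [cb, hv, hd.same, hd.ne]
  have hχ : ∀ i, (x.2 - cb ρ ε ψ) ⬝ᵥ e i = 0 := fun i => by
    fin_cases i <;> simp [cb, hψ, hd.same, hd.ne]
  have h3 : (x.2 - cb ρ ε ψ) ⬝ᵥ (x.1 - cb ρ e v) = ρ κ := by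
    have e1 : cb ρ ε ψ ⬝ᵥ (x.1 - cb ρ e v) = 0 := by
      simp only [cb, add_dotProduct, smul_dotProduct] at hf ⊢
      simp only [hf, smul_zero, add_zero]
    rw [sub_dotProduct, e1, sub_zero, dotProduct_sub, hx.1, hκ]
    simp [cb, hψ, map_ofNat]
  refine ⟨_, _, hf, hχ, h3, slp_sound Md.zero (fun m m' => Md.mul (PP_UU hd hf hχ h3)) p _ T
    (fun m hm => ?_) h⟩
  rcases List.mem_cons.1 hm with rfl | hm
  · exact Md.rf (by simpa using hx.isIn)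
  · obtain ⟨g, hg, rfl⟩ := List.mem_map.1 hm
    exact Md.rf (by simpa using hL g hg)

theorem end_hom (hN : NoHom G) (h2 : (2 : K) ≠ 0) (hd : Dual e ε) {f χ : Fin 5 → K} {κ κ' l : F9}
    (hf : ∀ i, ε i ⬝ᵥ f = 0) (hχ : ∀ i, χ ⬝ᵥ e i = 0) (hκ : χ ⬝ᵥ f = ρ κ) (h1 : κ' * κ = 1)
    (hl : l * l = -1) (h : Md ρ e ε f χ G (dm (l - 1) ((l - 1) * κ'))) : False := by
  have h1' : ρ κ' * ρ κ = 1 := by rw [← map_mul, h1, map_one]
  have hl' : ρ l * ρ l = -1 := by rw [← map_mul, hl, map_neg, map_one]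
  have hD : Dual ![e 0, e 1, e 2, f] ![ε 0, ε 1, ε 2, ρ κ' • χ] := fun i j => by
    fin_cases i <;> fin_cases j <;> simp [hd.same, hd.ne, hf, hχ, hκ, h1']
  obtain ⟨E, hE, -, hs⟩ := exists_compl hD
  have e1 : UU e f * (dm (l - 1) ((l - 1) * κ')).map ρ * PP ε χ = (ρ l - 1) • (1 - N E) := by
    rw [← hs, sub_sub_cancel]
    ext a b
    simp [UU, PP, dm, N, mul_apply, Fin.sum_univ_four, vecMulVec_apply, diagonal_apply]
    ring
  unfold Md at h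
  rw [e1] at h
  have hl0 : -ρ l ≠ 0 := fun e => by simp [neg_eq_zero.1 e] at hl'
  have := hN E (-ρ l) hE (by
    have := (h.mono (le_sup_left (b := scalars (Fin 5) K))).smul hl0
    rwa [show -ρ l • (1 + (ρ l - 1) • (1 - N E)) = 1 + (-ρ l - 1) • N E by
      match_scalars <;> first | linear_combination (-1 : K) * hl' | linear_combination hl'] at this)
  exact h2 (by linear_combination hl' - this)

theorem end_tv (hT : NoTv G) (hd : Dual e ε) {f χ : Fin 5 → K} (hf : ∀ i, ε i ⬝ᵥ f = 0)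
    (hχ : ∀ i, χ ⬝ᵥ e i = 0) (hκ : χ ⬝ᵥ f = ρ 0) {a b : Fin 4 → F9}
    (h0 : b 0 * a 0 + b 1 * a 1 + b 2 * a 2 = 0) (ha : a 0 ≠ 0) (hb : b 0 ≠ 0)
    (h : Md ρ e ε f χ G (vecMulVec a b)) : False := by
  unfold Md at h
  rw [map_vmv, ← N_up] at h
  have h0' := congrArg ρ h0
  simp only [map_add, map_mul, map_zero] at h0' hκ
  rcases hT _ ⟨by
    simp only [up, UU_mulVec, vecMul_PP]
    simp [hd.same, hd.ne, hf, hχ, hκ]
    linear_combination h0', h⟩ with e1 | e1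
  · have := congrArg (ε 0 ⬝ᵥ ·) e1
    simp [up, UU_mulVec, hd.same, hd.ne, hf] at this
    exact f9_ne ρ ha this
  · have := congrArg (· ⬝ᵥ e 0) e1
    simp [up, vecMul_PP, hd.same, hd.ne, hχ] at this
    exact f9_ne ρ hb this

end fin

end H5.LD
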