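/- Frames with a parameter of order four satisfy the pair hypothesis. -/
import Cfsg.Agent.H5.LD9

set_option autoImplicit false

open Matrix Cfsg Cfsg.Geo H19 H41.LD

namespace H5.LD

universe u

variable {K : Type u} [Field K] {G : Subgroup (GL (Fin 5) K)} {e ε : Fin 3 → Fin 5 → K} {x : R 5 K}
  {ζ η : K}

theorem mu4 (hF : Frame G e ε) (hζ : Mu G e ε ζ) (h : ζ ^ 2 = -1) (hη : η ^ 4 = 1) : Mu G e ε η := by
  have : (η - 1) * (η - ζ) * (η - ζ ^ 2) * (η - ζ ^ 3) = 0 := by grind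
  simp only [mul_eq_zero, sub_eq_zero] at this
  rcases this with ((rfl | rfl) | rfl) | rfl
  exacts [hF.mu_one, hζ, hF.mu_pow hζ 2, hF.mu_pow hζ 3]

/-- The exceptional position for the pair `i, j`. -/
def BB (e ε : Fin 3 → Fin 5 → K) (x : R 5 K) (i j : Fin 3) : Prop :=
  2 * (X e ε x i + X e ε x j) = 3 ∧
    (2 * ((ε i ⬝ᵥ x.1) * (x.2 ⬝ᵥ e j) + (ε j ⬝ᵥ x.1) * (x.2 ⬝ᵥ e i))) ^ 2 = 1 ∧
    (2 * ((ε i ⬝ᵥ x.1) * (x.2 ⬝ᵥ e j) - (ε j ⬝ᵥ x.1) * (x.2 ⬝ᵥ e i))) ^ 2 = -1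

theorem BB.symm {i j : Fin 3} (h : BB e ε x i j) : BB e ε x j i :=
  ⟨by linear_combination h.1, by linear_combination h.2.1, by linear_combination h.2.2⟩

theorem BB.mul (h2 : (2 : K) ≠ 0) {i j : Fin 3} (h : BB e ε x i j) :
    8 * (X e ε x i * X e ε x j) = 1 :=
  mul_left_cancel₀ h2 (by simp only [X]; linear_combination h.2.1 - h.2.2)

theorem alg0 (h2 : (2 : K) ≠ 0) {S u : K} (a : S - u = 1 ∨ S - u = 2) (b : S + u = 1 ∨ S + u = 2)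
    (hS : S ≠ 2) : (S = 1 ∧ u = 0) ∨ (2 * S = 3 ∧ (2 * u) ^ 2 = 1) := by
  rcases a with a | a <;> rcases b with b | b
  · exact .inl ⟨mul_left_cancel₀ h2 (by linear_combination a + b),
      mul_left_cancel₀ h2 (by linear_combination b - a)⟩
  · exact .inr ⟨by linear_combination a + b, by linear_combination (2 * u + 1) * (b - a)⟩
  · exact .inr ⟨by linear_combination a + b, by linear_combination (2 * u - 1) * (b - a)⟩
  · exact absurd (mul_left_cancel₀ h2 (by linear_combination a + b)) hS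

theorem alg_pair (h2 : (2 : K) ≠ 0) (hζ : ζ ^ 2 = -1) {S P Q : K}
    (a : S - P - Q = 1 ∨ S - P - Q = 2) (b : S + P + Q = 1 ∨ S + P + Q = 2)
    (c : S - ζ * P + ζ * Q = 1 ∨ S - ζ * P + ζ * Q = 2)
    (d : S + ζ * P - ζ * Q = 1 ∨ S + ζ * P - ζ * Q = 2) (hS : S ≠ 2) :
    (S = 1 ∧ P = 0 ∧ Q = 0) ∨ (2 * S = 3 ∧ (2 * (P + Q)) ^ 2 = 1 ∧ (2 * (P - Q)) ^ 2 = -1) := by
  rcases alg0 (u := P + Q) h2 (by rwa [← sub_sub]) (by rwa [← add_assoc]) hS with ⟨a1, a2⟩ | ⟨a1, a2⟩ <;>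
  rcases alg0 (u := ζ * P - ζ * Q) h2 (by rwa [← sub_add]) (by rwa [← add_sub_assoc]) hS with
    ⟨b1, b2⟩ | ⟨b1, b2⟩
  · exact .inl ⟨a1, mul_left_cancel₀ h2 (by linear_combination a2 - ζ * b2 + (P - Q) * hζ),
      mul_left_cancel₀ h2 (by linear_combination a2 + ζ * b2 - (P - Q) * hζ)⟩
  · exact absurd (by linear_combination 2 * a1 - b1) (one_ne_zero (α := K))
  · exact absurd (by linear_combination 2 * b1 - a1) (one_ne_zero (α := K))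
  · exact .inr ⟨a1, a2, by linear_combination (2 * (P - Q)) ^ 2 * hζ - b2⟩

theorem pl_pair {i j : Fin 3} {a b : K} (h : Pl (sw e ε i j a) (sw e ε i j b) x) :
    x.1 ∈ Submodule.span K {e i, e j} ∧ x.2 ∈ Submodule.span K {ε i, ε j} := by
  have k : ∀ (u w : Fin 5 → K) (c : K), u - c • w ∈ Submodule.span K {u, w} := fun u w c =>
    sub_mem (Submodule.subset_span (by simp)) (Submodule.smul_mem _ _ (Submodule.subset_span (by simp)))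
  exact ⟨Submodule.span_le.2 (by rintro _ (rfl | rfl) <;> exact k _ _ _) h.1,
    Submodule.span_le.2 (by rintro _ (rfl | rfl) <;> exact k _ _ _) h.2⟩

theorem pair (h2 : (2 : K) ≠ 0) (hD : Deg G) (hC : C12 G) (hF : Frame G e ε) (hζ : Mu G e ε ζ)
    (h : ζ ^ 2 = -1) (hx : Rf G x) {i j : Fin 3} (hij : i ≠ j) : HP2 e ε x i j ∨ BB e ε x i j := by
  by_cases h0 : X e ε x i = X e ε x j
  · exact .inl (.inl h0)
  by_cases h1 : x.1 ∈ Submodule.span K {e i, e j} ∧ x.2 ∈ Submodule.span K {ε i, ε j}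
  · exact .inl (.inr (.inr (.inr h1)))
  have hi : ζ⁻¹ = -ζ := inv_eq_of_mul_eq_one_right (by linear_combination -h)
  have key : ∀ η, η ^ 4 = 1 → X e ε x i + X e ε x j ≠ 2 ∧
      (cc (sw e ε i j η) x = 1 ∨ cc (sw e ε i j η) x = 2) := fun η hη => by
    have m1 := mu4 hF hζ h hη
    have m2 := hF.mu_mul hζ m1
    have nr : NR G (sw e ε i j η) (sw e ε i j (ζ * η)) x :=
      ⟨hF.sw m1 hij, hF.sw m2 hij, hx, sub_ne_zero.1 (by
        rw [tau_sw_sub hF.dual hij m1.1 m2.1, mul_inv_cancel_right₀ m1.1, mul_inv,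
          inv_mul_cancel_right₀ m1.1, hi, sub_neg_eq_add, ← two_mul]
        exact mul_ne_zero (sub_ne_zero.2 h0) (mul_ne_zero h2 hζ.1))⟩
    have hd : dt (sw e ε i j η) (sw e ε i j (ζ * η)) x ≠ 0 := fun e0 => h1 (pl_pair (hD _ _ _ nr e0))
    refine ⟨fun e0 => hd ?_, hC _ _ _ nr.swap (by rwa [dt_swap])⟩
    rw [dt_sw_sw hF.dual hij m1.1 m2.1, sub_sub 2 (X e ε x i), e0, sub_self, mul_zero]
  obtain ⟨hS, a⟩ := key 1 (by simp)
  have b := (key (-1) (by ring)).2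
  have c := (key ζ (by grind)).2
  have d := (key (-ζ) (by grind)).2
  rw [cc_sw _ _ _ _ (by simp [hζ.1])] at a b c d
  simp only [inv_neg, inv_one, hi, one_mul, neg_mul, sub_neg_eq_add, neg_neg] at a b c d
  rcases alg_pair h2 h a b c d hS with ⟨s1, s2, s3⟩ | s
  · left
    simp only [HP2, X, Z] at *
    by_cases hv : ε i ⬝ᵥ x.1 = 0
    · refine .inr (.inr (.inl ⟨by simpa [hv] using s1, hv, ?_⟩))
      exact (mul_eq_zero.1 s3).resolve_left fun e0 => by simp [hv, e0] at s1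
    · have h3 := (mul_eq_zero.1 s2).resolve_left hv
      refine .inr (.inl ⟨by simpa [h3] using s1, ?_, h3⟩)
      exact (mul_eq_zero.1 s3).resolve_right fun e0 => by simp [h3, e0] at s1
  · exact .inr s

theorem X_eq_zero_of_span {i j k : Fin 3} (hd : Dual e ε) (hi : k ≠ i) (hj : k ≠ j)
    (h : x.1 ∈ Submodule.span K {e i, e j}) : X e ε x k = 0 := by
  obtain ⟨a, b, h⟩ := Submodule.mem_span_pair.1 h
  simp [X, ← h, hd.ne hi, hd.ne hj]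

theorem tau_0201 (hd : Dual e ε) (a b : K) :
    tau (sw e ε 0 2 a) (sw e ε 0 1 b) x =
      (ε 0 ⬝ᵥ x.1 - b⁻¹ * (ε 1 ⬝ᵥ x.1)) * (x.2 ⬝ᵥ e 0 - a * (x.2 ⬝ᵥ e 2)) ∧
    tau (sw e ε 0 2 a) x (sw e ε 0 1 b) =
      (ε 0 ⬝ᵥ x.1 - a⁻¹ * (ε 2 ⬝ᵥ x.1)) * (x.2 ⬝ᵥ e 0 - b * (x.2 ⬝ᵥ e 1)) := by
  simp [tau, sw, hd.same, hd.ne]

theorem sum_of_pl (hd : Dual e ε) {a b : K} (h : Pl (sw e ε 0 2 a) (sw e ε 0 1 b) x) :
    x.2 ⬝ᵥ x.1 = X e ε x 0 + X e ε x 1 + X e ε x 2 := by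
  obtain ⟨p, q, h⟩ := Submodule.mem_span_pair.1 h.1
  simp only [X, ← h]
  simp [sw, hd.same, hd.ne]
  ring

theorem core_ne (h2 : (2 : K) ≠ 0) (h3 : (3 : K) ≠ 0) (hD : Deg G) (hC : C12 G) (hF : Frame G e ε)
    (hζ : Mu G e ε ζ) (h : ζ ^ 2 = -1) (hx : Rf G x) (hB : BB e ε x 0 1)
    (hne : X e ε x 0 ≠ X e ε x 1) (h02 : X e ε x 0 = X e ε x 2) : False := by
  have hi : ζ⁻¹ = -ζ := inv_eq_of_mul_eq_one_right (by linear_combination -h)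
  have hm := hB.mul h2
  have hs := hB.1
  have hX1 : X e ε x 1 ≠ 0 := fun e0 => by simp [e0] at hm
  have hX0 : X e ε x 0 ≠ 0 := fun e0 => by simp [e0] at hm
  have key : ∀ η, η ^ 4 = 1 → ε 0 ⬝ᵥ x.1 ≠ η⁻¹ * (ε 2 ⬝ᵥ x.1) →
      cc (sw e ε 0 2 η) x = 1 ∨ cc (sw e ε 0 2 η) x = 2 := fun η hη hv => by
    by_contra hc
    have k : ∀ θ, θ ^ 4 = 1 → (ε 0 ⬝ᵥ x.1 - θ⁻¹ * (ε 1 ⬝ᵥ x.1)) * (x.2 ⬝ᵥ e 0 - η * (x.2 ⬝ᵥ e 2)) =
        (ε 0 ⬝ᵥ x.1 - η⁻¹ * (ε 2 ⬝ᵥ x.1)) * (x.2 ⬝ᵥ e 0 - θ * (x.2 ⬝ᵥ e 1)) := fun θ hθ => by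
      rw [← (tau_0201 hF.dual η θ).1, ← (tau_0201 hF.dual η θ).2]
      by_contra hn
      have nr : NR G (sw e ε 0 2 η) (sw e ε 0 1 θ) x :=
        ⟨hF.sw (mu4 hF hζ h hη) (by decide), (mu4 hF hζ h hθ).2, hx, hn⟩
      refine hc (hC _ _ _ nr.swap fun e0 => ?_)
      have := sum_of_pl hF.dual (hD _ _ _ nr (by rwa [dt_swap]))
      rw [hx.1] at this
      grind
    have k1 := k 1 (by simp)
    have k2 := k (-1) (by ring)
    have k3 := k ζ (by grind)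
    have k4 := k (-ζ) (by grind)
    simp only [inv_neg, inv_one, hi] at k1 k2 k3 k4
    have : 2 * 2 * ζ * ((ε 0 ⬝ᵥ x.1 - η⁻¹ * (ε 2 ⬝ᵥ x.1)) * (x.2 ⬝ᵥ e 1)) = 0 := by
      linear_combination ζ * (k1 - k2) + (k3 - k4)
    exact mul_ne_zero (mul_ne_zero (mul_ne_zero h2 h2) hζ.1) (mul_ne_zero (sub_ne_zero.2 hv)
      (right_ne_zero_of_mul hX1)) this
  have fin : ∀ η, η ^ 4 = 1 → (η * (ε 0 ⬝ᵥ x.1)) ^ 2 ≠ (ε 2 ⬝ᵥ x.1) ^ 2 → False := fun η hη hv => by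
    have h0 : η ≠ 0 := fun e0 => by simp [e0] at hη
    have a := key η hη fun e0 => hv (by rw [e0, mul_inv_cancel_left₀ h0])
    have b := key (-η) (by linear_combination hη) fun e0 => hv (by
      rw [e0, inv_neg, neg_mul, mul_neg, mul_inv_cancel_left₀ h0, neg_sq])
    rw [cc_sw _ _ _ _ (by simp [h0])] at a b
    rw [inv_neg, ← h02] at b
    rw [← h02] at a
    generalize X e ε x 0 = y1, X e ε x 1 = y2 at *
    generalize η⁻¹ = η' at *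
    clear key hB
    rcases a with a | a <;> rcases b with b | b <;> grind
  by_cases hv : (ε 0 ⬝ᵥ x.1) ^ 2 = (ε 2 ⬝ᵥ x.1) ^ 2
  · refine fin ζ (by grind) fun e0 => ?_
    have : 2 * (ε 0 ⬝ᵥ x.1) ^ 2 = 0 := by linear_combination hv - e0 + (ε 0 ⬝ᵥ x.1) ^ 2 * h
    exact mul_ne_zero h2 (pow_ne_zero 2 (left_ne_zero_of_mul hX0)) this
  · exact fin 1 (by simp) (by simpa using hv)

theorem BB.four (h3 : (3 : K) = 0) {i j : Fin 3} (h : BB e ε x i j) :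
    ((ε i ⬝ᵥ x.1) * (x.2 ⬝ᵥ e j)) ^ 4 = -1 := by
  obtain ⟨-, a, b⟩ := h
  generalize (ε i ⬝ᵥ x.1) * (x.2 ⬝ᵥ e j) = P, (ε j ⬝ᵥ x.1) * (x.2 ⬝ᵥ e i) = Q at *
  grind

theorem dual_scale (hd : Dual e ε) {l : Fin 3 → K} (hl : ∀ i, l i ≠ 0) :
    Dual (fun i => l i • e i) fun i => (l i)⁻¹ • ε i := fun i j => by
  by_cases h : i = j
  · subst h; simp [hd.same, hl]
  · simp [hd.ne h, h]

theorem N_sw_scale {l : Fin 3 → K} (hl : ∀ i, l i ≠ 0) (i j : Fin 3) (hη : η ≠ 0) :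
    N (sw (fun i => l i • e i) (fun i => (l i)⁻¹ • ε i) i j η) = N (sw e ε i j (η * l j / l i)) := by
  have := hl i
  have := hl j
  simp only [sw, N_sub_left, N_sub_right, N_smul_left, N_smul_right]
  match_scalars <;> field_simp

theorem core_nine (hT : NoTv G) (hN : NoHom G) (h2 : (2 : K) ≠ 0) (h3 : (3 : K) = 0)
    (hd : Dual e ε) (h : ζ ^ 2 = -1) (ha : Rf G (sw e ε 0 1 1)) (hb : Rf G (sw e ε 0 1 ζ))
    (hc : Rf G (sw e ε 1 2 1)) (hx : Rf G x) {y : K} (hy : y = 1 ∨ y = -1) (v0 : ε 0 ⬝ᵥ x.1 = 1)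
    (v1 : ε 1 ⬝ᵥ x.1 = -y + ζ) (v2 : ε 2 ⬝ᵥ x.1 = 1) (p0 : x.2 ⬝ᵥ e 0 = y)
    (p1 : x.2 ⬝ᵥ e 1 = -1 - y * ζ) (p2 : x.2 ⬝ᵥ e 2 = y) : False := by
  have hi : ζ⁻¹ = -ζ := inv_eq_of_mul_eq_one_right (by linear_combination -h)
  obtain ⟨ρ, hρ⟩ := exists_f9 h3 h
  obtain ⟨r0, r1, r2, r3, r4, r5, r6, r7⟩ := vals ρ hρ
  have hL : ∀ g ∈ ([(![⟨1, 0⟩, ⟨2, 0⟩, ⟨0, 0⟩], ![⟨1, 0⟩, ⟨2, 0⟩, ⟨0, 0⟩]),
      (![⟨1, 0⟩, ⟨0, 2⟩, ⟨0, 0⟩], ![⟨1, 0⟩, ⟨0, 1⟩, ⟨0, 0⟩]),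
      (![⟨0, 0⟩, ⟨1, 0⟩, ⟨2, 0⟩], ![⟨0, 0⟩, ⟨1, 0⟩, ⟨2, 0⟩])] : List ((Fin 3 → F9) × (Fin 3 → F9))),
      In G (1 - N (cb ρ e g.1, cb ρ ε g.2)) := by
    simp only [List.forall_mem_cons, List.not_mem_nil, false_imp_iff, implies_true, and_true]
    refine ⟨?_, ?_, ?_⟩
    · simpa [cb, sw, r0, r1, r2, sub_eq_add_neg] using ha.isIn
    · simpa [cb, sw, r0, r1, r3, hρ, hi, sub_eq_add_neg] using hb.isIn
    · simpa [cb, sw, r0, r1, r2, sub_eq_add_neg] using hc.isIn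
  rcases hy with rfl | rfl
  · obtain ⟨f, χ, a, b, c, d⟩ := run (v := ![⟨1, 0⟩, ⟨2, 1⟩, ⟨1, 0⟩]) (ψ := ![⟨1, 0⟩, ⟨2, 2⟩, ⟨1, 0⟩])
      hd hx (fun i => by fin_cases i <;> simp [*]) (fun i => by fin_cases i <;> simp [*]) hL
      (κ := 1) (by decide) (p := [(1, 2, 472397), (0, 4, 7364296040), (0, 2, 468509850504983),
        (0, 0, 203047321340292), (0, 1, 204659378186341), (0, 0, 529475293561529),
        (0, 3, 1029473094690500)]) (T := dm (⟨0, 1⟩ - 1) ((⟨0, 1⟩ - 1) * 1)) (by decide +kernel)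
    exact end_hom hN h2 hd a b c (by decide) (by decide) d
  · obtain ⟨f, χ, a, b, c, d⟩ := run (v := ![⟨1, 0⟩, ⟨1, 1⟩, ⟨1, 0⟩]) (ψ := ![⟨2, 0⟩, ⟨2, 1⟩, ⟨2, 0⟩])
      hd hx (fun i => by fin_cases i <;> simp [*]) (fun i => by fin_cases i <;> simp [*]) hL
      (κ := 0) (by decide) (p := [(1, 2, 472397), (0, 4, 7364296040), (0, 2, 452996244396602),
        (0, 4, 439441004212770), (0, 4, 274473541336031), (0, 7, 266567279190742),
        (0, 6, 1198103049635584), (0, 10, 1116772639331296), (0, 0, 820908522497109)])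
      (T := vecMulVec ![⟨1, 0⟩, ⟨0, 2⟩, ⟨1, 0⟩, ⟨2, 1⟩] ![⟨0, 1⟩, ⟨2, 0⟩, ⟨0, 1⟩, ⟨2, 1⟩])
      (by decide +kernel)
    exact end_tv hT hd a b c (by decide) (by decide) (by decide) d

theorem core_three (hT : NoTv G) (hN : NoHom G) (h2 : (2 : K) ≠ 0) (h3 : (3 : K) = 0)
    (hF : Frame G e ε) (hζ : Mu G e ε ζ) (h : ζ ^ 2 = -1) (hx : Rf G x) (hB : BB e ε x 0 1)
    (hB' : BB e ε x 2 1) (h02 : X e ε x 0 = X e ε x 2) : False := by
  have : CharP K 3 := (CharP.charP_iff_prime_eq_zero Nat.prime_three).2 (by exact_mod_cast h3)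
  have hm := hB.mul h2
  have hs := hB.1
  have f1 := hB.four h3
  have f2 := hB'.four h3
  clear hB hB'
  have hy : X e ε x 0 = 1 ∨ X e ε x 0 = -1 := by grind
  have hy' : X e ε x 1 = -X e ε x 0 := by grind
  simp only [X] at *
  generalize hv0 : ε 0 ⬝ᵥ x.1 = v0, hv1 : ε 1 ⬝ᵥ x.1 = v1, hv2 : ε 2 ⬝ᵥ x.1 = v2,
    hp0 : x.2 ⬝ᵥ e 0 = p0, hp1 : x.2 ⬝ᵥ e 1 = p1, hp2 : x.2 ⬝ᵥ e 2 = p2 at *
  have n0 : v0 ≠ 0 := fun e0 => by simp [e0] at hm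
  have n1 : v1 ≠ 0 := fun e0 => by simp [e0] at hm
  have n2 : v2 ≠ 0 := fun e0 => by simp [e0] at f2
  have nb : v0 * p0 + ζ ≠ 0 := fun e0 => by grind
  have hl : ∀ i, ![v0, v1 * (v0 * p0 + ζ), v2] i ≠ 0 := fun i => by fin_cases i <;> simp [n0, n1, n2, nb]
  have k : ∀ i j η, i ≠ j → η ≠ 0 →
      (η * ![v0, v1 * (v0 * p0 + ζ), v2] j / ![v0, v1 * (v0 * p0 + ζ), v2] i) ^ 4 = 1 →
      Rf G (sw (fun i => ![v0, v1 * (v0 * p0 + ζ), v2] i • e i)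
        (fun i => (![v0, v1 * (v0 * p0 + ζ), v2] i)⁻¹ • ε i) i j η) := fun i j η hij hη h4 =>
    (hF.sw (mu4 hF hζ h h4) hij).of_N (N_sw_scale hl i j hη)
  refine core_nine hT hN h2 h3 (dual_scale hF.dual hl) h (k 0 1 1 (by decide) one_ne_zero ?_)
    (k 0 1 ζ (by decide) hζ.1 ?_) (k 1 2 1 (by decide) one_ne_zero ?_) hx hy ?_ ?_ ?_ ?_ ?_ ?_
  all_goals simp only [cons_val_zero, cons_val_one, cons_val, smul_dotProduct, dotProduct_smul,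
    smul_eq_mul, hv0, hv1, hv2, hp0, hp1, hp2, div_pow]
  all_goals clear k hl hv0 hv1 hv2 hp0 hp1 hp2
  all_goals field_simp
  all_goals grind

theorem jobM4 : JobM4.{u} := by
  intro K _ G hG h2 hD hC hN e ε ζ hF hζ h x hx
  by_contra hc
  have core : ∀ e ε, Frame G e ε → Mu G e ε ζ → BB e ε x 0 1 → X e ε x 0 ≠ X e ε x 1 →
      X e ε x 0 = X e ε x 2 → False := fun e ε hF hζ hB hne h02 => by
    by_cases h3 : (3 : K) = 0
    · have hm := hB.mul h2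
      have hX1 : X e ε x 1 ≠ 0 := fun e0 => by simp [e0] at hm
      have hX0 : X e ε x 0 ≠ 0 := fun e0 => by simp [e0] at hm
      refine core_three (hG.tv h2) hN h2 h3 hF hζ h hx hB
        ((pair h2 hD hC hF hζ h hx (by decide)).resolve_left ?_) h02
      rintro (a | a | a | a)
      · exact hne (h02.trans a)
      · exact hX1 (by simp [X, a.2.1])
      · exact hX0 (by rw [h02]; simp [X, a.2.1])
      · exact hX0 (X_eq_zero_of_span hF.dual (by decide) (by decide) a.1)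
    · exact core_ne h2 h3 hD hC hF hζ h hx hB hne h02
  have hB : BB e ε x 0 1 := (pair h2 hD hC hF hζ h hx (by decide)).resolve_left hc
  have hne : X e ε x 0 ≠ X e ε x 1 := fun e0 => hc (.inl e0)
  have hm := hB.mul h2
  have hX1 : X e ε x 1 ≠ 0 := fun e0 => by simp [e0] at hm
  have hX0 : X e ε x 0 ≠ 0 := fun e0 => by simp [e0] at hm
  by_cases h02 : X e ε x 0 = X e ε x 2
  · exact core e ε hF hζ hB hne h02
  by_cases h12 : X e ε x 1 = X e ε x 2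
  · have hσ : Function.Injective (Equiv.swap (0 : Fin 3) 1) := Equiv.injective _
    exact core _ _ (hF.perm hσ) ((hF.mu_perm hσ).2 hζ) hB.symm hne.symm h12
  have a : X e ε x 0 = 1 := by
    rcases pair h2 hD hC hF hζ h hx (i := 0) (j := 2) (by decide) with (a | a | a | a) | a
    · exact absurd a h02
    · exact a.1
    · exact absurd (by simp [X, a.2.1]) hX0
    · exact absurd (X_eq_zero_of_span hF.dual (by decide) (by decide) a.1) hX1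
    · exact absurd (mul_left_cancel₀ h2 (by linear_combination hB.1 - a.1)) h12
  have b : X e ε x 1 = 1 := by
    rcases pair h2 hD hC hF hζ h hx (i := 1) (j := 2) (by decide) with (a | a | a | a) | a
    · exact absurd a h12
    · exact a.1
    · exact absurd (by simp [X, a.2.1]) hX1
    · exact absurd (X_eq_zero_of_span hF.dual (by decide) (by decide) a.1) hX0
    · exact absurd (mul_left_cancel₀ h2 (by linear_combination hB.1 - a.1)) h02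
  exact hne (a.trans b.symm)

end H5.LD
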