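/- No reflection group of rank three of type `2 × L₃(2)`. -/
import Cfsg.Agent.H5.LDM4

set_option autoImplicit false
set_option linter.unusedSimpArgs false
set_option linter.unreachableTactic false
set_option linter.unusedTactic false
set_option linter.unnecessarySeqFocus false

open Matrix Cfsg Cfsg.Geo H19 H41.LD

namespace H5.LD

universe u

variable {K : Type u} [Field K] {G : Subgroup (GL (Fin 5) K)} {e ε : Fin 3 → Fin 5 → K} {x : R 5 K}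

/-- The entry `i, j` of `N x` in the frame. -/
def MM (e ε : Fin 3 → Fin 5 → K) (x : R 5 K) (i j : Fin 3) : K := (ε i ⬝ᵥ x.1) * (x.2 ⬝ᵥ e j)

theorem b3_perm (h : B3 G e ε) {σ : Fin 3 → Fin 3} (hσ : Function.Injective σ) :
    B3 G (e ∘ σ) (ε ∘ σ) :=
  ⟨h.dual.perm hσ, fun i => h.rd (σ i), fun _ _ hij => h.rs _ _ (hσ.ne hij)⟩

theorem b3_sw (h : B3 G e ε) {i j : Fin 3} (hij : i ≠ j) {η : K} (hη : η ^ 2 = 1) :
    Rf G (sw e ε i j η) := by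
  rcases sq_eq_one_iff.1 hη with rfl | rfl
  exacts [(h.rs i j hij).1, (h.rs i j hij).2]

theorem c12 (hD : Deg G) (hC : C12 G) (hx : Rf G x) (ho : x.1 ∉ Submodule.span K (Set.range e))
    {r s : R 5 K} (hr : Rf G r) (hs : Rf G s) (h1 : r.1 ∈ Submodule.span K (Set.range e))
    (h2 : s.1 ∈ Submodule.span K (Set.range e)) (h : tau r s x ≠ tau r x s) :
    dt r s x ≠ 0 ∧ (cc r x = 1 ∨ cc r x = 2) ∧ (cc s x = 1 ∨ cc s x = 2) := by
  have nr : NR G r s x := ⟨hr, hs, hx, h⟩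
  have hd : dt r s x ≠ 0 := fun e0 =>
    ho (Submodule.span_le.2 (by rintro _ (rfl | rfl); exacts [h1, h2]) (hD _ _ _ nr e0).1)
  exact ⟨hd, hC _ _ _ nr.swap (by rwa [dt_swap]), hC _ _ _ nr.rot (by rwa [dt_rot])⟩

theorem e_mem (e : Fin 3 → Fin 5 → K) (i : Fin 3) : e i ∈ Submodule.span K (Set.range e) :=
  Submodule.subset_span ⟨i, rfl⟩

theorem sw_mem (e ε : Fin 3 → Fin 5 → K) (i j : Fin 3) (η : K) :
    (sw e ε i j η).1 ∈ Submodule.span K (Set.range e) :=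
  sub_mem (e_mem e i) (Submodule.smul_mem _ _ (e_mem e j))

theorem no_half (h2 : (2 : K) ≠ 0) (h4 : ∀ e ε ζ, Frame G e ε → Mu G e ε ζ → ζ ^ 2 ≠ -1)
    (hB : B3 G e ε) (hx : Rf G x) {i j : Fin 3} (hij : i ≠ j) (a : 2 * X e ε x i = 1)
    (b : 2 * X e ε x j = 1) (c : MM e ε x i j + MM e ε x j i = 0) : False := by
  have hd := hB.dual
  have h1 := hx.1
  have s1 := hB.rd j
  have s2 := (hB.rs i j hij).1
  simp only [X, MM] at a b c
  generalize hvi : ε i ⬝ᵥ x.1 = vi, hvj : ε j ⬝ᵥ x.1 = vj, hpi : x.2 ⬝ᵥ e i = pi,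
    hpj : x.2 ⬝ᵥ e j = pj at a b c
  have hζ : (2 * (vi * pj)) ^ 2 = -1 := by
    linear_combination 4 * vi * pj * c - 2 * vj * pj * a - b
  have hi : (2 * (vi * pj))⁻¹ = -(2 * (vi * pj)) :=
    inv_eq_of_mul_eq_one_right (by linear_combination -hζ)
  have hs : vi * pi + vj * pj = 1 := mul_left_cancel₀ h2 (by linear_combination a + b)
  have hm : vi * pi - vj * pj = 0 := mul_left_cancel₀ h2 (by linear_combination a - b)
  refine h4 ![vi • e i - vj • e j, vi • e i + vj • e j, vi • e i + vj • e j - x.1]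
    ![pi • ε i - pj • ε j, pi • ε i + pj • ε j, pi • ε i + pj • ε j - x.2] (2 * (vi * pj))
    ⟨fun k l => ?_, s1.of_N ?_, hx.of_N ?_⟩ ⟨fun e0 => by simp [e0] at hζ, s2.of_N ?_⟩ hζ
  · fin_cases k <;> fin_cases l <;>
      simp [hd.same, hd.ne hij, hd.ne hij.symm, hvi, hvj, hpi, hpj, h1] <;>
      grind
  · simp only [sw, dg, cons_val_zero, cons_val_one, N_sub_left, N_sub_right, N_add_left, N_add_right,
      N_smul_left, N_smul_right, inv_one]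
    match_scalars <;> first | ring1 | linear_combination 2 * b
  · simp [sw]
  · simp only [sw, cons_val_zero, cons_val_one, N_sub_left, N_sub_right, N_add_left, N_add_right,
      N_smul_left, N_smul_right, inv_one, hi]
    match_scalars <;> grind

theorem pair3 (h2 : (2 : K) ≠ 0) (hD : Deg G) (hC : C12 G)
    (h4 : ∀ e ε ζ, Frame G e ε → Mu G e ε ζ → ζ ^ 2 ≠ -1) (hB : B3 G e ε) (hx : Rf G x)
    (ho : x.1 ∉ Submodule.span K (Set.range e)) {i j : Fin 3} (hij : i ≠ j)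
    (hM : MM e ε x i j ≠ MM e ε x j i) :
    ((2 * X e ε x i = 1 ∧ X e ε x j = 1) ∨ (X e ε x i = 1 ∧ 2 * X e ε x j = 1)) ∧
      (2 * (MM e ε x i j + MM e ε x j i)) ^ 2 = 1 := by
  have hd := hB.dual
  have key : ∀ i j, i ≠ j → MM e ε x i j ≠ MM e ε x j i → ∀ η : K, η = 1 ∨ η = -1 →
      X e ε x i + X e ε x j ≠ 2 ∧ (2 * X e ε x i = 1 ∨ 2 * X e ε x i = 2) ∧
      (X e ε x i + X e ε x j - η * (MM e ε x i j + MM e ε x j i) = 1 ∨
        X e ε x i + X e ε x j - η * (MM e ε x i j + MM e ε x j i) = 2) := fun i j hij hM η hη => by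
    have hi : η⁻¹ = η := by rcases hη with rfl | rfl <;> simp
    have hq : η ^ 2 = 1 := by rcases hη with rfl | rfl <;> simp
    have h0 : η ≠ 0 := fun e0 => by simp [e0] at hq
    obtain ⟨a, b, c⟩ := c12 hD hC hx ho (hB.rd i) (b3_sw hB hij hq) (e_mem e i) (sw_mem e ε i j η)
      fun e0 => hM (mul_left_cancel₀ (mul_ne_zero h2 h0) (by
        simp [tau, sw, dg, hd.same, hd.ne hij, hd.ne hij.symm, hi] at e0
        simp only [MM]; linear_combination e0))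
    refine ⟨fun e0 => a ?_, by simpa [cc, dg, X, mul_assoc] using b, ?_⟩
    · simp only [X] at e0
      simp [dt, cc, tau, sw, dg, hd.same, hd.ne hij, hd.ne hij.symm, hi]
      linear_combination (-2) * e0 - 2 * (ε j ⬝ᵥ x.1) * (x.2 ⬝ᵥ e j) * hq
    · rw [cc_sw _ _ _ _ h0, hi] at c
      simpa only [MM, mul_add, sub_sub] using c
  obtain ⟨hS, a, b⟩ := key i j hij hM 1 (.inl rfl)
  have c := (key i j hij hM (-1) (.inr rfl)).2.2
  have d := (key j i hij.symm hM.symm 1 (.inl rfl)).2.1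
  rw [one_mul] at b
  rw [neg_one_mul, sub_neg_eq_add] at c
  have h1 : (1 : K) ≠ 0 := one_ne_zero
  rcases alg0 h2 b c hS with ⟨s1, s2⟩ | ⟨s1, s2⟩ <;> rcases a with a | a <;> rcases d with d | d
  · exact (no_half h2 h4 hB hx hij a d s2).elim
  · exact absurd (by linear_combination 2 * s1 - a - d) h1
  · exact absurd (by linear_combination 2 * s1 - a - d) h1
  · exact absurd (by linear_combination 2 * s1 - a - d) h2
  · exact absurd (by linear_combination a + d - s1) h1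
  · exact ⟨.inl ⟨a, mul_left_cancel₀ h2 (by linear_combination d)⟩, s2⟩
  · exact ⟨.inr ⟨mul_left_cancel₀ h2 (by linear_combination a), d⟩, s2⟩
  · exact absurd (by linear_combination s1 - a - d) h1

theorem nine0 (hN : NoHom G) (h2 : (2 : K) ≠ 0) (h3 : (3 : K) = 0) (hB : B3 G e ε) (hx : Rf G x)
    {σ ζ d : K} (h : ζ ^ 2 = -1) (hσ : σ = 1 ∨ σ = -1) (hd : d = 0 ∨ d = 1 ∨ d = -1)
    (v0 : ε 0 ⬝ᵥ x.1 = 1) (v1 : ε 1 ⬝ᵥ x.1 = -σ - ζ) (v2 : ε 2 ⬝ᵥ x.1 = d * (-σ - ζ))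
    (p0 : x.2 ⬝ᵥ e 0 = -1) (p1 : x.2 ⬝ᵥ e 1 = σ - ζ) (p2 : x.2 ⬝ᵥ e 2 = d * (σ - ζ)) : False := by
  obtain ⟨ρ, hρ⟩ := exists_f9 h3 h
  obtain ⟨r0, r1, r2, r3, r4, r5, r6, r7⟩ := vals ρ hρ
  have h21 : (2 : K) = -1 := by linear_combination h3
  have hL : ∀ g ∈ ([(![⟨1, 0⟩, ⟨0, 0⟩, ⟨0, 0⟩], ![⟨2, 0⟩, ⟨0, 0⟩, ⟨0, 0⟩]),
      (![⟨1, 0⟩, ⟨2, 0⟩, ⟨0, 0⟩], ![⟨1, 0⟩, ⟨2, 0⟩, ⟨0, 0⟩]),
      (![⟨0, 0⟩, ⟨1, 0⟩, ⟨2, 0⟩], ![⟨0, 0⟩, ⟨1, 0⟩, ⟨2, 0⟩]),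
      (![⟨0, 0⟩, ⟨1, 0⟩, ⟨1, 0⟩], ![⟨0, 0⟩, ⟨1, 0⟩, ⟨1, 0⟩])] : List ((Fin 3 → F9) × (Fin 3 → F9))),
      In G (1 - N (cb ρ e g.1, cb ρ ε g.2)) := by
    simp only [List.forall_mem_cons, List.not_mem_nil, false_imp_iff, implies_true, and_true]
    refine ⟨?_, ?_, ?_, ?_⟩
    · simpa [cb, dg, r0, r1, r2, h21] using (hB.rd 0).isIn
    · simpa [cb, sw, r0, r1, r2, sub_eq_add_neg] using (hB.rs 0 1 (by decide)).1.isIn
    · simpa [cb, sw, r0, r1, r2, sub_eq_add_neg] using (hB.rs 1 2 (by decide)).1.isIn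
    · simpa [cb, sw, r0, r1, r2, sub_eq_add_neg] using (hB.rs 1 2 (by decide)).2.isIn
  have fin := fun (v ψ : Fin 3 → F9) (κ κ' l : F9) (p : List (ℕ × ℕ × ℕ)) hv hψ hκ
      (h1 : κ' * κ = 1) (hl : l * l = -1) hp => show False by
    obtain ⟨f, χ, a, b, c, d⟩ := run (v := v) (ψ := ψ) hB.dual hx hv hψ hL (κ := κ) hκ (p := p)
      (T := dm (l - 1) ((l - 1) * κ')) hp
    exact end_hom hN h2 hB.dual a b c h1 hl d
  clear hL
  rcases hσ with rfl | rfl <;> rcases hd with rfl | rfl | rfl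
  · exact fin ![⟨1, 0⟩, ⟨2, 2⟩, ⟨0, 0⟩] ![⟨2, 0⟩, ⟨1, 2⟩, ⟨0, 0⟩] ⟨2, 0⟩ ⟨2, 0⟩ ⟨0, 1⟩
      [(1, 2, 124679), (0, 4, 7361114114), (0, 2, 424906874863850), (0, 0, 1491490619931360), (0,
        1, 484725753085179), (0, 0, 1014211721626616), (0, 3, 1441255358879798)]
      (fun i => by fin_cases i <;> simp [*] <;> ring) (fun i => by fin_cases i <;> simp [*] <;> ring) (by decide)
      (by decide) (by decide) (by decide +kernel)
  · exact fin ![⟨1, 0⟩, ⟨2, 2⟩, ⟨2, 2⟩] ![⟨2, 0⟩, ⟨1, 2⟩, ⟨1, 2⟩] ⟨1, 0⟩ ⟨1, 0⟩ ⟨0, 2⟩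
      [(1, 2, 124679), (0, 4, 7361114114), (0, 2, 539287353017139), (0, 0, 651162888687441), (0,
        1, 1464235967707307), (0, 0, 521039137471567), (0, 3, 1647156951504800)]
      (fun i => by fin_cases i <;> simp [*] <;> ring) (fun i => by fin_cases i <;> simp [*] <;> ring) (by decide)
      (by decide) (by decide) (by decide +kernel)
  · exact fin ![⟨1, 0⟩, ⟨2, 2⟩, ⟨1, 1⟩] ![⟨2, 0⟩, ⟨1, 2⟩, ⟨2, 1⟩] ⟨1, 0⟩ ⟨1, 0⟩ ⟨0, 2⟩
      [(1, 2, 124679), (0, 5, 7748534522), (0, 2, 585166291041495), (0, 0, 674101235827992), (0,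
        1, 1487205571018589), (0, 0, 612484320013495), (0, 3, 1647156951504800)]
      (fun i => by fin_cases i <;> simp [*] <;> ring) (fun i => by fin_cases i <;> simp [*] <;> ring) (by decide)
      (by decide) (by decide) (by decide +kernel)
  · exact fin ![⟨1, 0⟩, ⟨1, 2⟩, ⟨0, 0⟩] ![⟨2, 0⟩, ⟨2, 2⟩, ⟨0, 0⟩] ⟨2, 0⟩ ⟨2, 0⟩ ⟨0, 2⟩
      [(1, 2, 124679), (0, 4, 7361114114), (0, 2, 422396346989360), (0, 0, 1707803697560746), (0,
        0, 1616633789074211), (0, 2, 823592423126204)]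
      (fun i => by fin_cases i <;> simp [*] <;> ring) (fun i => by fin_cases i <;> simp [*] <;> ring) (by decide)
      (by decide) (by decide) (by decide +kernel)
  · exact fin ![⟨1, 0⟩, ⟨1, 2⟩, ⟨1, 2⟩] ![⟨2, 0⟩, ⟨2, 2⟩, ⟨2, 2⟩] ⟨1, 0⟩ ⟨1, 0⟩ ⟨0, 2⟩
      [(1, 2, 124679), (0, 4, 7361114114), (0, 2, 513900032155519), (0, 0, 749888569058780), (0,
        1, 1531107427646802), (0, 0, 588729231138127), (0, 3, 1647156951504800)]
      (fun i => by fin_cases i <;> simp [*] <;> ring) (fun i => by fin_cases i <;> simp [*] <;> ring) (by decide)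
      (by decide) (by decide) (by decide +kernel)
  · exact fin ![⟨1, 0⟩, ⟨1, 2⟩, ⟨2, 1⟩] ![⟨2, 0⟩, ⟨2, 2⟩, ⟨1, 1⟩] ⟨1, 0⟩ ⟨1, 0⟩ ⟨0, 2⟩
      [(1, 2, 124679), (0, 5, 7748534522), (0, 2, 605469880126903), (0, 0, 795672158064923), (0,
        1, 1599768628589928), (0, 0, 543099620784523), (0, 3, 1647156951504800)]
      (fun i => by fin_cases i <;> simp [*] <;> ring) (fun i => by fin_cases i <;> simp [*] <;> ring) (by decide)
      (by decide) (by decide) (by decide +kernel)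

theorem nine (hN : NoHom G) (h2 : (2 : K) ≠ 0) (h3 : (3 : K) = 0) (hB : B3 G e ε) (hx : Rf G x)
    (a : 2 * X e ε x 0 = 1) (b : X e ε x 1 = 1) (c : (2 * (MM e ε x 0 1 + MM e ε x 1 0)) ^ 2 = 1)
    {d : K} (hd : d = 0 ∨ d = 1 ∨ d = -1) (v2 : ε 2 ⬝ᵥ x.1 = d * (ε 1 ⬝ᵥ x.1))
    (p2 : x.2 ⬝ᵥ e 2 = d * (x.2 ⬝ᵥ e 1)) : False := by
  have : CharP K 3 := (CharP.charP_iff_prime_eq_zero Nat.prime_three).2 (by exact_mod_cast h3)
  simp only [X, MM] at a b c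
  have n0 : ε 0 ⬝ᵥ x.1 ≠ 0 := fun e0 => by simp [e0] at a
  refine nine0 hN h2 h3 hB (hx.of_N (N_scale (inv_ne_zero n0) x))
    (σ := 2 * (MM e ε x 0 1 + MM e ε x 1 0)) (ζ := 2 * MM e ε x 0 1 + 2 * (MM e ε x 0 1 + MM e ε x 1 0))
    ?_ (sq_eq_one_iff.1 c) hd ?_ ?_ ?_ ?_ ?_ ?_
  all_goals simp only [MM, smul_dotProduct, dotProduct_smul, smul_eq_mul, inv_inv, v2, p2]
  all_goals generalize ε 0 ⬝ᵥ x.1 = v0, ε 1 ⬝ᵥ x.1 = v1, x.2 ⬝ᵥ e 0 = p0, x.2 ⬝ᵥ e 1 = p1 at a b c n0 ⊢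
  all_goals clear hd v2 p2
  all_goals grind

theorem heis (hB : B3 G e ε) {f χ : Fin 5 → K} (hf : ∀ i, ε i ⬝ᵥ f = 0) (hχ : ∀ i, χ ⬝ᵥ e i = 0)
    (h0 : χ ⬝ᵥ f = 0) {a0 a1 a2 b0 b1 b2 : K}
    (h : Rf G (a0 • e 0 + a1 • e 1 + a2 • e 2 + f, b0 • ε 0 + b1 • ε 1 + b2 • ε 2 + χ)) :
    In G (1 + N ((-2 : K) • (a0 • e 0 + a1 • e 1 + a2 • e 2), χ) +
      N (f, (2 : K) • (b0 • ε 0 + b1 • ε 1 + b2 • ε 2)) + (-4 : K) • N (f, χ)) := by
  have hd := hB.dual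
  have h' := (hB.rd 0).cj ((hB.rd 1).cj ((hB.rd 2).cj h))
  have e1 : cj (dg e ε 0) (cj (dg e ε 1) (cj (dg e ε 2)
      (a0 • e 0 + a1 • e 1 + a2 • e 2 + f, b0 • ε 0 + b1 • ε 1 + b2 • ε 2 + χ))) =
      (-(a0 • e 0 + a1 • e 1 + a2 • e 2) + f, -(b0 • ε 0 + b1 • ε 1 + b2 • ε 2) + χ) := by
    refine Prod.ext ?_ ?_ <;> simp [H41.LD.cj, dg, hd.same, hd.ne, hf, hχ] <;> module
  rw [e1] at h'
  have w1 : (b0 • ε 0 + b1 • ε 1 + b2 • ε 2) ⬝ᵥ f = 0 := by simp [hf]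
  have w2 : χ ⬝ᵥ (a0 • e 0 + a1 • e 1 + a2 • e 2) = 0 := by simp [hχ]
  have w3 := h.1
  have := h.isIn.mul h'.isIn
  generalize a0 • e 0 + a1 • e 1 + a2 • e 2 = w, b0 • ε 0 + b1 • ε 1 + b2 • ε 2 = ω at *
  simp only [add_dotProduct, dotProduct_add, w1, w2, h0, add_zero] at w3
  convert this using 1
  simp only [N_add_left, N_add_right, N_neg_left, N_neg_right, N_smul_left, N_smul_right, mul_add,
    add_mul, mul_sub, sub_mul, mul_neg, neg_mul, N_mk_mul, w1, w2, w3, h0, mul_one, one_mul]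
  module

theorem core_heis (hT : NoTv G) (h2 : (2 : K) ≠ 0) (hB : B3 G e ε) (hx : Rf G x)
    (ho : x.1 ∉ Submodule.span K (Set.range e)) (hM : MM e ε x 0 1 ≠ MM e ε x 1 0)
    (hs : X e ε x 0 + X e ε x 1 + X e ε x 2 = 2) (hX : X e ε x 0 ≠ 0) : False := by
  have hd := hB.dual
  have h1 := hx.1
  simp only [X, MM] at hM hs hX
  generalize hv0 : ε 0 ⬝ᵥ x.1 = v0, hv1 : ε 1 ⬝ᵥ x.1 = v1, hv2 : ε 2 ⬝ᵥ x.1 = v2,
    hp0 : x.2 ⬝ᵥ e 0 = p0, hp1 : x.2 ⬝ᵥ e 1 = p1, hp2 : x.2 ⬝ᵥ e 2 = p2 at hM hs hX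
  obtain ⟨f, e1⟩ : ∃ f, x.1 = v0 • e 0 + v1 • e 1 + v2 • e 2 + f := ⟨_, (add_sub_cancel _ _).symm⟩
  obtain ⟨χ, e2⟩ : ∃ χ, x.2 = p0 • ε 0 + p1 • ε 1 + p2 • ε 2 + χ := ⟨_, (add_sub_cancel _ _).symm⟩
  have hf : ∀ i, ε i ⬝ᵥ f = 0 := fun i => by
    rw [e1] at hv0 hv1 hv2
    fin_cases i <;> simp_all [hd.same, hd.ne]
  have hχ : ∀ i, χ ⬝ᵥ e i = 0 := fun i => by
    rw [e2] at hp0 hp1 hp2
    fin_cases i <;> simp_all [hd.same, hd.ne]
  have h0 : χ ⬝ᵥ f = 0 := by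
    rw [e1, e2] at h1
    simp [hd.same, hd.ne, hf, hχ] at h1
    linear_combination h1 - hs
  have hf0 : f ≠ 0 := fun e0 => ho (by
    rw [e1, e0, add_zero]
    exact add_mem (add_mem (Submodule.smul_mem _ _ (e_mem e 0)) (Submodule.smul_mem _ _ (e_mem e 1)))
      (Submodule.smul_mem _ _ (e_mem e 2)))
  have hx' : Rf G (v0 • e 0 + v1 • e 1 + v2 • e 2 + f, p0 • ε 0 + p1 • ε 1 + p2 • ε 2 + χ) := by
    rwa [← e1, ← e2]
  have hy := (hB.rd 0).cj ((hB.rs 0 1 (by decide)).1.cj hx')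
  have e3 : cj (dg e ε 0) (cj (sw e ε 0 1 1)
      (v0 • e 0 + v1 • e 1 + v2 • e 2 + f, p0 • ε 0 + p1 • ε 1 + p2 • ε 2 + χ)) =
      ((-v1) • e 0 + v0 • e 1 + v2 • e 2 + f, (-p1) • ε 0 + p0 • ε 1 + p2 • ε 2 + χ) := by
    refine Prod.ext ?_ ?_ <;> simp [H41.LD.cj, dg, sw, hd.same, hd.ne, hf, hχ] <;> module
  rw [e3] at hy
  have n1 := heis hB hf hχ h0 hx'
  have k := hT _ (hc n1 (heis hB hf hχ h0 hy) (by simp [hχ]) (by simp [hχ]) h0 (by simp [hf])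
    (by simp [hf]))
  have hχ0 : χ = 0 := (smul_eq_zero.1 (k.resolve_left hf0)).resolve_left fun e0 => hM (by
    simp [hd.same, hd.ne] at e0
    exact mul_left_cancel₀ (pow_ne_zero 3 h2) (by linear_combination -e0))
  have := (hT (f, (2 : K) • (p0 • ε 0 + p1 • ε 1 + p2 • ε 2)) ⟨by simp [hf], by
    simpa [hχ0, In] using n1⟩).resolve_left hf0
  have := congrArg (· ⬝ᵥ e 0) this
  simp [hd.same, hd.ne, h2] at this
  simp [this] at hX

theorem core3 (hG : RS G) (h2 : (2 : K) ≠ 0) (hD : Deg G) (hC : C12 G) (hN : NoHom G)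
    (h4 : ∀ e ε ζ, Frame G e ε → Mu G e ε ζ → ζ ^ 2 ≠ -1) (hB : B3 G e ε) (hx : Rf G x)
    (ho : x.1 ∉ Submodule.span K (Set.range e)) (hM : MM e ε x 0 1 ≠ MM e ε x 1 0)
    (a : 2 * X e ε x 0 = 1) (b : X e ε x 1 = 1) (c : (2 * (MM e ε x 0 1 + MM e ε x 1 0)) ^ 2 = 1) :
    False := by
  have hd := hB.dual
  have h1 : (1 : K) ≠ 0 := one_ne_zero
  by_cases hX : X e ε x 2 = 0
  · obtain ⟨z1, z2⟩ := hG.thin.of_cc (hB.rd 2) hx (by simpa [cc, dg, X, h2] using hX)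
    have z1 : ε 2 ⬝ᵥ x.1 = 0 := by simpa [dg, h2] using z1
    have z2 : x.2 ⬝ᵥ e 2 = 0 := z2
    have k := (c12 hD hC hx ho (hB.rs 0 2 (by decide)).1 (hB.rs 0 1 (by decide)).1 (sw_mem _ _ _ _ _) (sw_mem _ _ _ _ _)
      fun e0 => hM (by
        rw [(tau_0201 hd 1 1).1, (tau_0201 hd 1 1).2, z1, z2] at e0
        simp only [MM]; linear_combination e0)).2.1
    rw [cc_sw _ _ _ _ h1, hX, z1, z2] at k
    refine nine hN h2 ?_ hB hx a b c (.inl rfl) (by simp [z1]) (by simp [z2])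
    rcases k with k | k
    · exact absurd (by linear_combination a - 2 * k) h1
    · linear_combination a - 2 * k
  by_cases h02 : MM e ε x 0 2 = MM e ε x 2 0
  · have h12 : MM e ε x 1 2 ≠ MM e ε x 2 1 := fun e0 => hM (mul_left_cancel₀ hX (by
      simp only [MM, X] at *
      linear_combination (ε 2 ⬝ᵥ x.1) * (x.2 ⬝ᵥ e 1) * h02 - (ε 2 ⬝ᵥ x.1) * (x.2 ⬝ᵥ e 0) * e0))
    rcases (pair3 h2 hD hC h4 hB hx ho (by decide) h12).1 with k | k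
    · exact h1 (by linear_combination k.1 - 2 * b)
    · exact core_heis (hG.tv h2) h2 hB hx ho hM
        (mul_left_cancel₀ h2 (by linear_combination a + 2 * b + k.2)) fun e0 => by simp [e0] at a
  have b2 : X e ε x 2 = 1 := by
    rcases (pair3 h2 hD hC h4 hB hx ho (by decide) h02).1 with k | k
    · exact k.2
    · exact absurd (by linear_combination a - 2 * k.1) h1
  have h12 : MM e ε x 1 2 = MM e ε x 2 1 := by
    by_contra h12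
    rcases (pair3 h2 hD hC h4 hB hx ho (by decide) h12).1 with k | k
    · exact h1 (by linear_combination k.1 - 2 * b)
    · exact h1 (by linear_combination k.2 - 2 * b2)
  obtain ⟨δ, hδ⟩ : ∃ δ, MM e ε x 2 1 = δ := ⟨_, rfl⟩
  rw [hδ] at h12
  have hq : δ ^ 2 = 1 := by
    simp only [MM, X] at *
    linear_combination (-δ) * h12 - (ε 1 ⬝ᵥ x.1) * (x.2 ⬝ᵥ e 2) * hδ + (ε 2 ⬝ᵥ x.1) * (x.2 ⬝ᵥ e 2) * b + b2
  have v2 : ε 2 ⬝ᵥ x.1 = δ * (ε 1 ⬝ᵥ x.1) := by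
    simp only [MM, X] at *
    linear_combination (ε 1 ⬝ᵥ x.1) * hδ - (ε 2 ⬝ᵥ x.1) * b
  have p2 : x.2 ⬝ᵥ e 2 = δ * (x.2 ⬝ᵥ e 1) := by
    simp only [MM, X] at *
    linear_combination (x.2 ⬝ᵥ e 1) * h12 - (x.2 ⬝ᵥ e 2) * b
  have hi : (-δ)⁻¹ = -δ := inv_eq_of_mul_eq_one_right (by linear_combination hq)
  have k := (c12 hD hC hx ho (b3_sw hB (i := 1) (j := 2) (η := -δ) (by decide) (by linear_combination hq))
    (hB.rs 0 1 (by decide)).1 (sw_mem _ _ _ _ _) (sw_mem _ _ _ _ _) fun e0 => hM (mul_left_cancel₀ h2 (by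
      simp only [tau, sw, hi, sub_dotProduct, dotProduct_sub, smul_dotProduct, dotProduct_smul,
        smul_eq_mul, v2, p2] at e0
      simp [hd.same, hd.ne] at e0
      simp only [MM]
      linear_combination -e0 + ((ε 1 ⬝ᵥ x.1) * (x.2 ⬝ᵥ e 0) - (ε 0 ⬝ᵥ x.1) * (x.2 ⬝ᵥ e 1)) * hq))).2.1
  rw [cc_sw _ _ _ _ (fun e0 => by simp [neg_eq_zero.1 e0] at hq), hi, b, b2] at k
  simp only [MM] at h12 hδ
  rw [h12, hδ] at k
  refine nine hN h2 ?_ hB hx a b c (.inr (sq_eq_one_iff.1 hq)) v2 p2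
  rcases k with k | k
  · linear_combination k - 2 * hq
  · exact absurd (by linear_combination k - 2 * hq) h2

theorem inB3_form {y : R 5 K} (h : InB3 e ε y) :
    ∃ i j, ∃ a c : K, N y = N (e i + a • e j, c • (ε i + a • ε j)) := by
  rcases h with ⟨i, h⟩ | ⟨i, j, -, h | h⟩
  · exact ⟨i, i, 0, 2, by simpa [dg] using h⟩
  · exact ⟨i, j, -1, 1, by simpa [sw, sub_eq_add_neg] using h⟩
  · exact ⟨i, j, 1, 1, by simpa [sw] using h⟩

theorem jobG24 : JobG24.{u} := by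
  intro K _ _ G hG h2 hD hC hN h4 r s t nr _ hT
  obtain ⟨r', s', x, s1, s2, nr', ho⟩ := hG.exists_nr nr
  obtain ⟨e, ε, hB, hS, i1, i2⟩ := hT.b3 r' s' nr'.r1 s1 nr'.r2 s2
  have hx := nr'.r3
  have ho : x.1 ∉ Submodule.span K (Set.range e) := fun h =>
    ho (Submodule.span_le.2 (by rintro _ ⟨i, rfl⟩; exact (hS i).1) h)
  obtain ⟨i, j, hM⟩ : ∃ i j, MM e ε x i j ≠ MM e ε x j i := by
    by_contra hc
    push Not at hc
    obtain ⟨i, j, a, c, e1⟩ := inB3_form i1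
    obtain ⟨k, l, a', c', e2⟩ := inB3_form i2
    refine nr'.ne ?_
    rw [tau_congr e1 e2 rfl, tau_congr (x := r') (y := x) (z := s') e1 rfl e2]
    have hs : ∀ i j, ε i ⬝ᵥ e j = ε j ⬝ᵥ e i := fun i j => by simp [hB.dual _ _, eq_comm]
    simp only [tau, add_dotProduct, dotProduct_add, smul_dotProduct, dotProduct_smul, smul_eq_mul,
      hs k i, hs k j, hs l i, hs l j]
    simp only [MM] at hc
    linear_combination c * c' * (ε i ⬝ᵥ e k + a * (ε j ⬝ᵥ e k) + a' * (ε i ⬝ᵥ e l + a * (ε j ⬝ᵥ e l))) *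
      (hc k i + a * hc k j + a' * hc l i + a * a' * hc l j)
  have key : ∀ i j, i ≠ j → MM e ε x i j ≠ MM e ε x j i → 2 * X e ε x i = 1 → X e ε x j = 1 →
      (2 * (MM e ε x i j + MM e ε x j i)) ^ 2 = 1 → False := fun i j hij hM a b c => by
    obtain ⟨σ, hσ, rfl, rfl⟩ := (by decide : ∀ i j : Fin 3, i ≠ j →
      ∃ σ : Fin 3 → Fin 3, Function.Injective σ ∧ σ 0 = i ∧ σ 1 = j) i j hij
    exact core3 hG h2 hD hC hN h4 (b3_perm hB hσ) hx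
      (fun h => ho (Submodule.span_mono (Set.range_comp_subset_range σ e) h)) hM a b c
  have hij : i ≠ j := fun e0 => hM (by rw [e0])
  obtain ⟨k | k, c⟩ := pair3 h2 hD hC h4 hB hx ho hij hM
  · exact key i j hij hM k.1 k.2 c
  · exact key j i hij.symm hM.symm k.2 k.1 (by rwa [add_comm])

end H5.LD
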