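import Cfsg.Agent.H31.O7A

/-! O7 (blueprints/O7.md), chapter A, job Sx: simplices and frames. -/

set_option autoImplicit false
set_option linter.unusedSectionVars false

namespace H5.O7

open H56 H31.O7 QuadraticMap Module

universe u

variable {K : Type u} [Field K] {V : Type u} [AddCommGroup V] [Module K V] {Q : QuadraticForm K V}
  {N : K}

theorem polar_sub_sub (a b c d : V) :
    polar Q (a - b) (c - d) = Q (a - d) + Q (b - c) - Q (a - c) - Q (b - d) := by
  simp only [Q_sub, polar_sub_left, polar_sub_right]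
  ring

section A

variable {n : ℕ} {x : Fin n → V}

/-- Kronecker symbol -/
def kr (K : Type u) [Field K] (i j : Fin n) : K := if i = j then 1 else 0

theorem kr_self (i : Fin n) : kr K i i = 1 := if_pos rfl

theorem kr_ne {i j : Fin n} (h : i ≠ j) : kr K i j = 0 := if_neg h

theorem Q_d (h : Sx Q x N) (i j : Fin n) : Q (x i - x j) = N * (1 - kr K i j) := by
  by_cases e : i = j
  · simp [e, kr_self]
  · rw [h i j e, kr_ne e, sub_zero, mul_one]

theorem polar_d (h : Sx Q x N) (i j k l : Fin n) : polar Q (x i - x j) (x k - x l) =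
    N * (kr K i k + kr K j l - kr K i l - kr K j k) := by
  rw [polar_sub_sub, Q_d h, Q_d h, Q_d h, Q_d h]; ring

theorem x_swap {i j : Fin n} (e : i ≠ j) (k : Fin n) :
    x (Equiv.swap i j k) = x k - (kr K i k - kr K j k) • (x i - x j) := by
  by_cases h1 : k = i
  · subst h1; simp [kr_self, kr_ne e.symm]
  by_cases h2 : k = j
  · subst h2; simp [kr_self, kr_ne e]
  rw [Equiv.swap_apply_of_ne_of_ne h1 h2, kr_ne (Ne.symm h1), kr_ne (Ne.symm h2)]; simp

theorem refl_d (hN : N ≠ 0) (h : Sx Q x N) {i j : Fin n} (e : i ≠ j) (k l : Fin n) :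
    refl Q (x i - x j) (x k - x l) = x (Equiv.swap i j k) - x (Equiv.swap i j l) := by
  rw [refl_apply, polar_d h, h i j e, inv_mul_cancel_left₀ hN, x_swap (K := K) (x := x) e,
    x_swap (K := K) (x := x) e]
  module

/-- `g` permutes the roots as `s σ`. -/
def Act (x : Fin n → V) (g : O Q) (σ : Equiv.Perm (Fin n)) (s : ℤˣ) : Prop :=
  ∀ i j, g (x i - x j) = s • (x (σ i) - x (σ j))

theorem map_usmul (g : O Q) (s : ℤˣ) (v : V) : g (s • v) = s • g v := by
  rcases Int.units_eq_one_or s with rfl | rfl <;> simp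

theorem Act.mul {g h : O Q} {σ τ : Equiv.Perm (Fin n)} {s t : ℤˣ} (a : Act x g σ s)
    (b : Act x h τ t) : Act x (g * h) (σ * τ) (s * t) := fun i j => by
  rw [O.mul_apply, b, map_usmul, a, smul_smul, mul_comm t s]; rfl

theorem Act.inv {g : O Q} {σ : Equiv.Perm (Fin n)} {s : ℤˣ} (a : Act x g σ s) :
    Act x g⁻¹ σ⁻¹ s⁻¹ := fun i j => by
  rw [O.inv_apply_eq, map_usmul, a, smul_smul, inv_mul_cancel, one_smul]; simp

theorem act_one : Act (Q := Q) x 1 1 1 := fun i j => by simp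

theorem act_gen (hN : N ≠ 0) (h : Sx Q x N) {i j : Fin n} (e : i ≠ j) :
    Act x (O.negOne Q * refl Q (x i - x j)) (Equiv.swap i j) (-1) := fun k l => by
  rw [O.mul_apply, refl_d hN h e]; simp

theorem gen_mem {i j : Fin n} (e : i ≠ j) : O.negOne Q * refl Q (x i - x j) ∈ Mg Q (RA x) :=
  Subgroup.subset_closure ⟨_, ⟨i, j, e, rfl⟩, rfl⟩

theorem exists_act (hN : N ≠ 0) (h : Sx Q x N) {g : O Q} (hg : g ∈ Mg Q (RA x)) :
    ∃ σ s, Act x g σ s := by
  induction hg using Subgroup.closure_induction with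
  | mem g hg => obtain ⟨_, ⟨i, j, e, rfl⟩, rfl⟩ := hg; exact ⟨_, _, act_gen hN h e⟩
  | one => exact ⟨_, _, act_one⟩
  | mul a b _ _ ha hb => obtain ⟨_, _, ha⟩ := ha; obtain ⟨_, _, hb⟩ := hb; exact ⟨_, _, ha.mul hb⟩
  | inv a _ ha => obtain ⟨_, _, ha⟩ := ha; exact ⟨_, _, ha.inv⟩

theorem exists_psi (hN : N ≠ 0) (h : Sx Q x N) (σ : Equiv.Perm (Fin n)) :
    ∃ g ∈ Mg Q (RA x), Act x g σ (Equiv.Perm.sign σ) := by
  induction σ using Equiv.Perm.swap_induction_on with
  | one => exact ⟨1, one_mem _, by rw [map_one]; exact act_one⟩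
  | swap_mul σ i j e ih =>
    obtain ⟨g, hg, ha⟩ := ih
    exact ⟨_, mul_mem (gen_mem e) hg, by
      rw [map_mul, Equiv.Perm.sign_swap e]; exact (act_gen hN h e).mul ha⟩

theorem ext_of_span (hs : Submodule.span K (RA x) = ⊤) {g h : O Q}
    (e : ∀ i j, g (x i - x j) = h (x i - x j)) : g = h := O.ext fun v => by
  have : g.lin = h.lin := LinearMap.ext_on hs (by rintro _ ⟨i, j, -, rfl⟩; exact e i j)
  exact LinearMap.congr_fun this v

theorem d_inj (h2 : (2 : K) ≠ 0) (hN : N ≠ 0) (h : Sx Q x N) (hn : 5 ≤ n) {i j k l : Fin n}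
    (e : i ≠ j) (e' : x i - x j = x k - x l) : i = k := by
  obtain ⟨m, -, hm⟩ := Finset.exists_mem_notMem_of_card_lt_card (s := {i, j, k, l})
    (t := Finset.univ) (lt_of_le_of_lt Finset.card_le_four (by simp; omega))
  simp only [Finset.mem_insert, Finset.mem_singleton, not_or] at hm
  have h1 := polar_d h i j i m
  rw [e', polar_d h, kr_self, kr_ne (Ne.symm hm.1), kr_ne (Ne.symm hm.2.1), kr_ne (Ne.symm hm.2.2.1),
    kr_ne (Ne.symm hm.2.2.2), kr_ne e.symm] at h1
  have h3 := mul_left_cancel₀ hN h1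
  by_contra h4
  rw [kr_ne (Ne.symm h4)] at h3
  by_cases h5 : l = i
  · rw [h5, kr_self] at h3
    exact h2 (by linear_combination -h3)
  · rw [kr_ne h5] at h3
    exact one_ne_zero (α := K) (by linear_combination -h3)

theorem dim_eq [FiniteDimensional K V] (hd : finrank K V = 7) (hN : N ≠ 0) (h : Sx Q x N)
    (hn : 3 ≤ n) (hs : Submodule.span K (RA x) = ⊤) : n = 8 ∨ n = 9 ∧ (3 : K) = 0 := by
  obtain ⟨m, rfl⟩ : ∃ m, n = m + 1 := ⟨n - 1, by omega⟩
  let f := Fintype.linearCombination K fun i : Fin m => x i.succ - x 0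
  have h0 : ∀ i, x i - x 0 ∈ LinearMap.range f := fun i => by
    refine Fin.cases (by simp) (fun i => ⟨Pi.single i 1, by simp [f]⟩) i
  have h1 : LinearMap.range f = ⊤ := top_le_iff.1 (hs.ge.trans (Submodule.span_le.2 (by
    rintro _ ⟨i, j, -, rfl⟩
    simpa using sub_mem (h0 i) (h0 j))))
  have h2 : ∀ c ∈ LinearMap.ker f, ∀ j, c j = -∑ i, c i := fun c hc j => by
    have h3 : polar Q (f c) (x j.succ - x 0) = 0 := by rw [LinearMap.mem_ker.1 hc, polar_zero_left]
    have h4 : ∀ i : Fin m, polar Q (x i.succ - x 0) (x j.succ - x 0) =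
        N * ((if i = j then 1 else 0) + 1) := fun i => by
      rw [polar_d h, kr_self, kr_ne (Fin.succ_ne_zero i), kr_ne (Fin.succ_ne_zero j).symm]
      simp [kr]
    rw [Fintype.linearCombination_apply, ← polarBilin_apply_apply, map_sum, LinearMap.sum_apply] at h3
    simp only [map_smul, LinearMap.smul_apply, polarBilin_apply_apply, h4, smul_eq_mul] at h3
    have h5 : ∑ i, c i * (N * ((if i = j then 1 else 0) + 1)) = N * (c j + ∑ i, c i) := by
      simp [mul_add, Finset.sum_add_distrib, Finset.mul_sum, mul_comm]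
    rw [h5] at h3
    linear_combination (mul_eq_zero.1 h3).resolve_left hN
  have h3 := f.finrank_range_add_finrank_ker
  rw [h1, finrank_top, hd, finrank_fintype_fun_eq_card, Fintype.card_fin] at h3
  have h4 : finrank K (LinearMap.ker f) ≤ 1 := by
    refine le_trans (Submodule.finrank_mono (t := K ∙ (1 : Fin m → K)) fun c hc => ?_)
      ((finrank_span_le_card _).trans (by simp))
    exact Submodule.mem_span_singleton.2 ⟨-∑ i, c i, funext fun j => by simp [← h2 c hc j]⟩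
  by_cases h5 : finrank K (LinearMap.ker f) = 0
  · left; omega
  · right
    obtain rfl : m = 8 := by omega
    refine ⟨rfl, ?_⟩
    obtain ⟨c, hc, c0⟩ := (Submodule.ne_bot_iff _).1 (mt Submodule.finrank_eq_zero.2 h5)
    have h6 : ∑ i, c i ≠ 0 := fun e => c0 (funext fun j => by simp [h2 c hc j, e])
    have h7 : ∑ i, c i = ∑ _j : Fin 8, -∑ i, c i := Finset.sum_congr rfl fun j _ => h2 c hc j
    rw [Finset.sum_const, Finset.card_univ, Fintype.card_fin, nsmul_eq_mul] at h7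
    have h8 : (3 : K) * 3 * ∑ i, c i = 0 := by push_cast at h7; linear_combination h7
    simpa using (mul_eq_zero.1 h8).resolve_right h6

theorem comm_ne (h2 : (2 : K) ≠ 0) (hN : N ≠ 0) (h : Sx Q x N) (hn : 5 ≤ n) :
    ⁅Mg Q (RA x), Mg Q (RA x)⁆ ≠ Mg Q (RA x) := fun e => by
  let P : Subgroup (O Q) :=
    { carrier := {g | ∃ σ, Act x g σ 1}
      one_mem' := ⟨1, act_one⟩
      mul_mem' := fun ⟨_, a⟩ ⟨_, b⟩ => ⟨_, by simpa using a.mul b⟩
      inv_mem' := fun ⟨_, a⟩ => ⟨_, by simpa using a.inv⟩ }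
  have h1 : ⁅Mg Q (RA x), Mg Q (RA x)⁆ ≤ P := Subgroup.commutator_le.2 fun a ha b hb => by
    obtain ⟨σ, s, a1⟩ := exists_act hN h ha
    obtain ⟨τ, t, b1⟩ := exists_act hN h hb
    have := ((a1.mul b1).mul a1.inv).mul b1.inv
    rw [show s * t * s⁻¹ * t⁻¹ = 1 by rw [mul_comm s t]; group] at this
    exact ⟨_, this⟩
  let i0 : Fin n := ⟨0, by omega⟩
  let i1 : Fin n := ⟨1, by omega⟩
  let i2 : Fin n := ⟨2, by omega⟩
  have e01 : i0 ≠ i1 := by simp [i0, i1]
  have e02 : i0 ≠ i2 := by simp [i0, i2]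
  have e12 : i1 ≠ i2 := by simp [i1, i2]
  obtain ⟨σ, hσ⟩ := h1 (e.ge (gen_mem e01))
  have key : ∀ l, i0 ≠ l → σ i0 = Equiv.swap i0 i1 l := fun l hl => by
    have := (hσ i0 l).symm.trans (act_gen hN h e01 i0 l)
    rw [one_smul, Units.neg_smul, one_smul, neg_sub] at this
    exact d_inj h2 hN h hn (σ.injective.ne hl) this
  exact e12 ((Equiv.swap i0 i1).injective ((key i1 e01).symm.trans (key i2 e02)))

theorem det_negOne [FiniteDimensional K V] (hd : finrank K V = 7) : O.det Q (O.negOne Q) = -1 := by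
  ext
  rw [O.val_det, show (O.negOne Q).lin = (-1 : K) • LinearMap.id from LinearMap.ext fun v => by
    simp [O.lin_apply], LinearMap.det_smul, hd]
  norm_num

theorem det_Mg [FiniteDimensional K V] (hd : finrank K V = 7) {Ψ : Set V} (h : ∀ v ∈ Ψ, Q v ≠ 0) :
    Mg Q Ψ ≤ (O.det Q).ker := (Subgroup.closure_le _).2 (by
  rintro _ ⟨v, hv, rfl⟩
  rw [SetLike.mem_coe, MonoidHom.mem_ker, map_mul, det_negOne hd, O.det_refl (h v hv)]
  simp)

theorem mem_Mg [FiniteDimensional K V] (h2 : (2 : K) ≠ 0) (hd : finrank K V = 7) (hN : N ≠ 0)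
    (h : Sx Q x N) (hs : Submodule.span K (RA x) = ⊤) {g : O Q} (hg : LinearMap.det g.lin = 1)
    {σ : Equiv.Perm (Fin n)} {s : ℤˣ} (ha : Act x g σ s) : g ∈ Mg Q (RA x) := by
  obtain ⟨p, hp, hb⟩ := exists_psi hN h σ
  by_cases e : s = Equiv.Perm.sign σ
  · rwa [ext_of_span hs fun i j => (ha i j).trans (e ▸ hb i j).symm]
  · have h1 : g = O.negOne Q * p := ext_of_span hs fun i j => by
      rw [ha, O.mul_apply, hb, Int.units_ne_iff_eq_neg.1 e, Units.neg_smul]; rfl
    have h3 := (O.det_eq_one_iff g).2 hg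
    rw [h1, map_mul, det_negOne hd, MonoidHom.mem_ker.1 (det_Mg hd (by
      rintro _ ⟨i, j, e, rfl⟩; rw [h i j e]; exact hN) hp), mul_one] at h3
    have h4 : (-1 : K) = 1 := by simpa using congrArg Units.val h3
    exact absurd (by linear_combination -h4) h2

end A

section D

/-- equal up to sign -/
def PM (u v : V) : Prop := u = v ∨ u = -v

theorem PM.neg {u v : V} (h : PM u v) : PM (-u) v := by
  rcases h with rfl | rfl
  exacts [Or.inr rfl, Or.inl (neg_neg _)]

theorem PM.symm {u v : V} (h : PM u v) : PM v u := by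
  rcases h with rfl | rfl
  exacts [Or.inl rfl, Or.inr (neg_neg _).symm]

theorem PM.trans {u v w : V} (h : PM u v) (h' : PM v w) : PM u w := by
  rcases h with rfl | rfl
  exacts [h', h'.neg]

theorem PM.map {u v : V} (h : PM u v) (g : O Q) : PM (g u) (g v) := by
  rcases h with rfl | rfl
  exacts [Or.inl rfl, Or.inr (map_neg g _)]

variable {e : Fin 7 → V} (hN : N ≠ 0) (h1 : ∀ i, 2 * Q (e i) = N)
  (h0 : ∀ i j, i ≠ j → polar Q (e i) (e j) = 0)
include hN h1 h0

theorem refl_e (h2 : (2 : K) ≠ 0) {i j : Fin 7} (ij : i ≠ j) {w : V} (hw : PM w (e j)) :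
    refl Q (e i - w) (e i) = w ∧ refl Q (e i - w) w = e i ∧
      ∀ k, k ≠ i → k ≠ j → refl Q (e i - w) (e k) = e k := by
  have q1 : Q (e i) = Q w := by
    have : Q (e i) = Q (e j) := mul_left_cancel₀ h2 ((h1 i).trans (h1 j).symm)
    rcases hw with rfl | rfl
    exacts [this, by rw [QuadraticMap.map_neg]; exact this]
  have q2 : ∀ k, k ≠ j → polar Q w (e k) = 0 := fun k hk => by
    rcases hw with rfl | rfl
    exacts [h0 _ _ hk.symm, by rw [polar_neg_left, h0 _ _ hk.symm, neg_zero]]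
  have q3 : Q (e i - w) ≠ 0 := by
    rw [Q_sub, ← q1, polar_comm, q2 i ij, sub_zero, ← two_mul, h1]; exact hN
  have q4 := refl_sub_apply q1 q3
  refine ⟨q4, ?_, fun k k1 k2 => refl_apply_of_orth ?_⟩
  · conv_lhs => rw [← congrArg (refl Q (e i - w)) q4]
    exact refl_refl _ _
  · rw [polar_sub_left, h0 _ _ k1.symm, q2 k k2, sub_zero]

theorem mono (h2 : (2 : K) ≠ 0) {v : V} (hv : v ∈ RD e) (k : Fin 7) :
    ∃ l, PM (refl Q v (e k)) (e l) := by
  obtain ⟨i, j, ij, hv⟩ := hv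
  obtain ⟨w, hw, hr⟩ : ∃ w, PM w (e j) ∧ refl Q v = refl Q (e i - w) := by
    rcases hv with rfl | rfl | rfl
    · exact ⟨_, Or.inl rfl, rfl⟩
    · exact ⟨_, Or.inr rfl, by rw [sub_neg_eq_add]⟩
    · exact ⟨_, Or.inr rfl, by rw [sub_neg_eq_add, refl_neg]⟩
  obtain ⟨a, b, c⟩ := refl_e hN h1 h0 h2 ij hw
  rw [hr]
  by_cases k1 : k = i
  · exact ⟨j, by rw [k1, a]; exact hw⟩
  by_cases k2 : k = j
  · exact ⟨i, by rw [k2]; exact (hw.symm.map _).trans (Or.inl b)⟩
  exact ⟨k, Or.inl (c k k1 k2)⟩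

theorem not_simple (h2 : (2 : K) ≠ 0) : ¬ IsSimpleGroup (Mg Q (RD e)) := fun hs => by
  let D : Subgroup (O Q) :=
    { carrier := {g | ∀ i, PM (g (e i)) (e i)}
      one_mem' := fun _ => Or.inl rfl
      mul_mem' := fun {a b} ha hb i => ((hb i).map a).trans (ha i)
      inv_mem' := fun {a} ha i => by simpa using ((ha i).map a⁻¹).symm }
  have hn : Mg Q (RD e) ≤ Subgroup.normalizer (D : Set (O Q)) := (Subgroup.closure_le _).2 (by
    rintro _ ⟨v, hv, rfl⟩
    have inv : (O.negOne Q * refl Q v)⁻¹ = O.negOne Q * refl Q v :=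
      inv_eq_of_mul_eq_one_right (O.ext fun y => by simp)
    have key : ∀ a ∈ D, O.negOne Q * refl Q v * a * (O.negOne Q * refl Q v)⁻¹ ∈ D := fun a ha k => by
      obtain ⟨l, hl⟩ := mono hN h1 h0 h2 hv k
      have h3 : PM (a (refl Q v (e k))) (refl Q v (e k)) := ((hl.map a).trans (ha l)).trans hl.symm
      simpa [inv] using h3.map (refl Q v)
    refine Subgroup.mem_normalizer_iff.2 fun a => ⟨key a, fun ha => ?_⟩
    have := key _ ha
    generalize O.negOne Q * refl Q v = r at inv this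
    rwa [show r * (r * a * r⁻¹) * r⁻¹ = a by
      nth_rewrite 1 [← inv]
      nth_rewrite 4 [← inv]
      group] at this)
  have ne : ∀ i, e i ≠ 0 := fun i h => hN (by rw [← h1 i, h]; simp)
  have m1 : O.negOne Q * refl Q (e 0 - e 1) ∈ Mg Q (RD e) :=
    Subgroup.subset_closure ⟨_, ⟨0, 1, by decide, Or.inl rfl⟩, rfl⟩
  have m2 : O.negOne Q * refl Q (e 0 - -e 1) ∈ Mg Q (RD e) :=
    Subgroup.subset_closure ⟨_, ⟨0, 1, by decide, Or.inr (Or.inl (sub_neg_eq_add _ _))⟩, rfl⟩
  obtain ⟨a1, a2, a3⟩ := refl_e hN h1 h0 h2 (i := 0) (j := 1) (by decide) (Or.inl rfl)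
  obtain ⟨b1, b2, b3⟩ := refl_e hN h1 h0 h2 (i := 0) (j := 1) (by decide) (Or.inr rfl)
  have b2' : refl Q (e 0 - -e 1) (e 1) = -e 0 := by rw [← neg_eq_iff_eq_neg, ← map_neg, b2]
  have c0 : (O.negOne Q * refl Q (e 0 - e 1) * (O.negOne Q * refl Q (e 0 - -e 1))) (e 0) = -e 0 := by
    simp only [O.mul_apply, O.negOne_apply, b1, map_neg, neg_neg, a2]
  rcases (Subgroup.normal_subgroupOf_of_le_normalizer hn).eq_bot_or_eq_top with h | h
  · have : (⟨_, mul_mem m1 m2⟩ : Mg Q (RD e)) ∈ D.subgroupOf (Mg Q (RD e)) := fun k => by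
      by_cases k1 : k = 0
      · exact Or.inr (k1 ▸ c0)
      by_cases k2 : k = 1
      · refine Or.inr ?_
        change (_ * (_ * _) : O Q) _ = _
        simp only [k2, O.mul_apply, O.negOne_apply, b2', map_neg, neg_neg, a1]
      refine Or.inl ?_
      change (_ * (_ * _) : O Q) _ = _
      simp only [O.mul_apply, O.negOne_apply, b3 k k1 k2, map_neg, neg_neg, a3 k k1 k2]
    rw [h, Subgroup.mem_bot, Subtype.ext_iff] at this
    simp only [OneMemClass.coe_one] at this
    rw [this, O.one_apply, eq_neg_iff_add_eq_zero, ← two_smul K] at c0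
    exact ne 0 ((smul_eq_zero.1 c0).resolve_left h2)
  · have : (⟨_, m1⟩ : Mg Q (RD e)) ∈ D.subgroupOf (Mg Q (RD e)) := h ▸ Subgroup.mem_top _
    have h3 : PM (-e 1) (e 0) := by rw [← a1]; exact this 0
    have h4 := h0 0 1 (by decide)
    rcases h3.neg with h5 | h5 <;> rw [neg_neg] at h5 <;> rw [h5] at h4
    · rw [polar_self', h1] at h4; exact hN h4
    · rw [polar_neg_right, polar_self', h1, neg_eq_zero] at h4; exact hN h4

end D

theorem jobSx : JobSx.{u} := by
  intro K _ V _ _ _ Q h2 _ hd N hN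
  refine ⟨fun n x hn h hs => ?_, fun e h1 h0 h => not_simple hN h1 h0 h2 h.1⟩
  have h3 := dim_eq hd hN h hn hs
  refine ⟨h3, comm_ne h2 hN h (by omega), fun g hg σ ha => ?_⟩
  rcases ha with ha | ha
  · exact mem_Mg h2 hd hN h hs hg (σ := σ) (s := 1) fun i j => by rw [ha, one_smul]
  · exact mem_Mg h2 hd hN h hs hg (σ := σ) (s := -1) fun i j => by rw [ha]; simp

end H5.O7
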