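/- PS tower (S0725), slot PS-RED: reduction to the stabiliser of `t - 2` points. -/
import Cfsg.Agent.H39.PSSpec

set_option autoImplicit false
set_option linter.unusedSectionVars false

namespace H5.PSRed
open Equiv MulAction Finset H39.PS

universe u

section
variable {α : Type u} [Fintype α] [DecidableEq α]

theorem card_fx (G : Subgroup (Perm α)) (S : Finset α) :
    Nat.card (fx G S) = Nat.card (fixingSubgroup G (S : Set α)) := by
  have h : (fixingSubgroup G (S : Set α)).map G.subtype = fx G S := by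
    ext g
    rw [mem_fx, Subgroup.mem_map]
    constructor
    · rintro ⟨x, hx, rfl⟩
      refine ⟨x.2, fun a ha => ?_⟩
      exact (mem_fixingSubgroup_iff G).1 hx a (by simpa using ha)
    · rintro ⟨hg, h⟩
      refine ⟨⟨g, hg⟩, (mem_fixingSubgroup_iff G).2 fun a ha => ?_, rfl⟩
      exact h a (by simpa using ha)
  rw [← h, Subgroup.card_map_of_injective G.subtype_injective]

theorem order_eq (G : Subgroup (Perm α)) (S : Finset α) (k : ℕ) (hS : S.card = k)
    (hk : IsMultiplyPretransitive G α k) :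
    Nat.card G = (Fintype.card α).descFactorial k * Nat.card (fx G S) := by
  have hle : k ≤ Fintype.card α := hS ▸ S.card_le_univ
  have h1 := hk.index_of_fixingSubgroup_mul (s := (S : Set α)) (by simpa using hS)
  rw [Nat.card_eq_fintype_card, ← Nat.factorial_mul_descFactorial hle, mul_comm] at h1
  have h2 := Nat.eq_of_mul_eq_mul_left (Nat.factorial_pos _) h1
  rw [card_fx, ← h2, mul_comm]
  exact (Subgroup.card_mul_index _).symm

theorem two_of (G : Subgroup (Perm α)) (S : Finset α) (t : ℕ) (hS : S.card + 2 = t)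
    (ht : IsMultiplyPretransitive G α t) : Two G S := by
  intro a ha b hb c hc d hd hab hcd
  have h := SubMulAction.ofFixingSubgroup.isMultiplyPretransitive G (m := 2) (n := t)
    (S : Set α) (by simpa using hS)
  rw [is_two_pretransitive_iff] at h
  have m : ∀ x, x ∉ S → x ∈ SubMulAction.ofFixingSubgroup G (S : Set α) := fun x hx => by
    rw [SubMulAction.mem_ofFixingSubgroup_iff]; simpa using hx
  obtain ⟨g, h1, h2⟩ := h (a := ⟨a, m a ha⟩) (b := ⟨b, m b hb⟩) (c := ⟨c, m c hc⟩)
    (d := ⟨d, m d hd⟩) (fun e => hab (congrArg Subtype.val e))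
    (fun e => hcd (congrArg Subtype.val e))
  refine ⟨g.1.1, mem_fx.2 ⟨g.1.2, fun x hx => ?_⟩, congrArg Subtype.val h1,
    congrArg Subtype.val h2⟩
  exact (mem_fixingSubgroup_iff G).1 g.2 x (by simpa using hx)

theorem trans_of_three (G : Subgroup (Perm α)) (S : Finset α) (k : ℕ) (hS : S.card = k)
    (hk : IsMultiplyPretransitive G α k) (h3 : Three G S) :
    IsMultiplyPretransitive G α (k + 3) := by
  let e : Fin k ↪ α := ⟨fun i => ((S.equivFin.symm (Fin.cast hS.symm i) : S) : α), by
    intro i j hij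
    have := S.equivFin.symm.injective (Subtype.val_injective hij)
    exact Fin.cast_injective _ this⟩
  have he : ∀ a ∈ S, ∃ i, e i = a := fun a ha =>
    ⟨Fin.cast hS (S.equivFin ⟨a, ha⟩), by
      show ((S.equivFin.symm (S.equivFin ⟨a, ha⟩) : S) : α) = a
      rw [Equiv.symm_apply_apply]⟩
  have he' : ∀ i, e i ∈ S := fun i => (S.equivFin.symm (Fin.cast hS.symm i)).2
  have key : ∀ x : Fin (k + 3) ↪ α, ∃ g : G, (∀ i : Fin k, (g : Perm α) (x (Fin.castAdd 3 i)) = e i) ∧
      ∀ j : Fin 3, (g : Perm α) (x (Fin.natAdd k j)) ∉ S := by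
    intro x
    obtain ⟨g, hg⟩ := (isMultiplyPretransitive_iff.1 hk) ((Fin.castAddEmb 3).trans x) e
    have h1 : ∀ i : Fin k, (g : Perm α) (x (Fin.castAdd 3 i)) = e i := fun i => by
      rw [← hg]; rfl
    refine ⟨g, h1, fun j hj => ?_⟩
    obtain ⟨i, hi⟩ := he _ hj
    rw [← h1] at hi
    have := congrArg Fin.val (x.injective ((g : Perm α).injective hi))
    simp at this
    omega
  rw [isMultiplyPretransitive_iff]
  intro x y
  obtain ⟨g1, a1, b1⟩ := key x
  obtain ⟨g2, a2, b2⟩ := key y
  have ne : ∀ (g : G) (z : Fin (k + 3) ↪ α) (i j : Fin 3), i ≠ j →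
      (g : Perm α) (z (Fin.natAdd k i)) ≠ (g : Perm α) (z (Fin.natAdd k j)) := by
    intro g z i j hij h
    apply hij
    have := congrArg Fin.val (z.injective ((g : Perm α).injective h))
    simp at this
    exact Fin.ext this
  obtain ⟨h, hh, c0, c1, c2⟩ := h3 _ (b1 0) _ (b1 1) _ (b1 2) _ (b2 0) _ (b2 1) _ (b2 2)
    (ne _ _ _ _ (by decide)) (ne _ _ _ _ (by decide)) (ne _ _ _ _ (by decide))
    (ne _ _ _ _ (by decide)) (ne _ _ _ _ (by decide)) (ne _ _ _ _ (by decide))
  obtain ⟨hG, hf⟩ := mem_fx.1 hh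
  refine ⟨g2⁻¹ * ⟨h, hG⟩ * g1, ?_⟩
  ext i
  have : h ((g1 : Perm α) (x i)) = (g2 : Perm α) (y i) := by
    refine Fin.addCases (fun i => ?_) (fun j => ?_) i
    · rw [a1, a2, hf _ (he' i)]
    · fin_cases j
      · exact c0
      · exact c1
      · exact c2
  show (g2 : Perm α)⁻¹ (h ((g1 : Perm α) (x i))) = y i
  rw [this]; simp

end

theorem jobRed : H39.PS.Red.{u} := by
  intro α _ _ G t h2 hc ht hn
  obtain ⟨k, rfl⟩ : ∃ k, t = k + 2 := ⟨t - 2, by omega⟩
  obtain ⟨S, -, hS⟩ := Finset.exists_subset_card_eq (s := (univ : Finset α)) (n := k)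
    (by rw [card_univ]; omega)
  have hk : IsMultiplyPretransitive G α k :=
    isMultiplyPretransitive_of_le (n := k + 2) (by omega) (by rw [Nat.card_eq_fintype_card]; omega)
  refine ⟨S, by simpa using hS, ?_, two_of G S _ (by omega) ht, fun h3 => hn ?_⟩
  · simpa using order_eq G S k hS hk
  · exact trans_of_three G S k hS hk h3

end H5.PSRed
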