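/- The automorphisms of the centralizer of a 2-central involution of the Ree group over the field with
two elements, up to inner automorphisms. -/
import Cfsg.Agent.H5.R3E
import Cfsg.Agent.H55.OcB
import Cfsg.Agent.Rz.H5_R3_Ex_ev_eq_def

set_option autoImplicit false
set_option linter.unusedSectionVars false
set_option linter.unusedSimpArgs false

namespace H5.R3
open H63.Oc H65.PA Subgroup

/-- the value of a word -/
def wd (a b c : Ex) (w : List ℕ) : Ex := w.foldr (fun i e => [a, b].getD i c * e) (.c 0)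

/-- words in `x₁, y₈, y₄` for the twelve generators -/
def WS : Tw (List ℕ) := ⟨[0], [0, 1, 0, 1, 1, 1, 0, 1, 1, 2, 0, 1, 1], [0, 2, 0, 2, 2, 2],
  [1, 0, 2, 0, 1, 0, 2, 0, 1, 1], [2], [2, 2], [1, 0, 2, 0, 1, 1, 0, 2, 0, 1],
  [0, 2, 0, 1, 2, 0, 1, 1, 0, 1, 2], [0, 1, 1, 0, 1, 1, 2, 0, 1, 1, 0, 1, 1, 2],
  [0, 1, 1, 1, 0, 1, 1, 0, 1, 0, 1, 1, 2, 2], [1], [1, 1]⟩

/-- the eight classes of automorphisms -/
def LB : List (Tw ℕ) := [⟨1, 2, 4, 8, 16, 32, 64, 128, 256, 512, 1024, 2048⟩,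
  ⟨1, 34, 4, 8, 48, 32, 64, 160, 256, 512, 1024, 2048⟩,
  ⟨9, 46, 4, 8, 16, 32, 64, 480, 256, 576, 1040, 2080⟩,
  ⟨9, 14, 4, 8, 48, 32, 64, 448, 256, 576, 1040, 2080⟩,
  ⟨1, 2, 4, 8, 16, 32, 64, 128, 256, 512, 1056, 2048⟩,
  ⟨1, 34, 4, 8, 48, 32, 64, 160, 256, 512, 1056, 2048⟩,
  ⟨9, 46, 4, 8, 16, 32, 64, 480, 256, 576, 1072, 2080⟩,
  ⟨9, 14, 4, 8, 48, 32, 64, 448, 256, 576, 1072, 2080⟩]

/-- the words have the given values -/
def fW (B : Tw ℕ) : Fm := Fm.all [(WS.g1, B.g1), (WS.g2, B.g2), (WS.g3, B.g3), (WS.g5, B.g5),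
  (WS.g6, B.g6), (WS.g7, B.g7), (WS.g8, B.g8), (WS.g9, B.g9), (WS.g11, B.g11)]
  fun t => .eq (wd (.c B.g0) (.c B.g10) (.c B.g4) t.1) (.c t.2)

def f1 : Fm := (Fm.and (inQ .v) (.eq (.v * .n8 .v) (.c 0))).imp <| Fm.ex (List.range 16) fun w =>
  Fm.ex [0, 32] fun t => .and (inQ (.c w)) (.eq (.c w * .v) (.c t * .n8 (.c w)))
def f2 : Fm := Fm.all [0, 32] fun t => Fm.all LK fun k =>
  (Fm.and (.eq (.up .v) (.c k.b)) (.and (.eq (.c k.d) (.up (.v * .v)))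
    (.eq (.n8 .v * .c k.a) (.v * .c t * .n8 (.v * .v))))).imp <|
  Fm.ex [0, 72, 130, 202, 260, 332, 390, 462, 521, 577, 647, 719, 781, 837, 899, 971] fun w =>
    Fm.ex [1024, 1040, 1056, 1072] fun y => .and (.and (inQ (.c w)) (.eq (.n8 (.c w)) (.c w)))
      (.eq (.c w * .v) (.c y * .c w))
def f3 : Fm := Fm.all [1024, 1040, 1056, 1072] fun y =>
  (Fm.and (inQ .v) (.and (.eq (.n8 .v) .v) (.and (cm .v (.c y)) (.not (.eq (.v * .v) (.c 0)))))).imp <|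
  Fm.ex LB fun B => .and (.eq (.c y) (.c B.g10)) (.eq .v (.c B.g4))
def f4 : Fm := Fm.all LB fun B =>
  (Fm.and (inQ .v) (.and (.eq (.v * .v) (.c 0)) (.and (.not (cm .v (.c B.g4)))
    (.eq (.n8 .v) (wd .v (.c B.g10) (.c B.g4) WS.g9))))).imp <|
  Fm.ex [0, 16] fun w => .and (.eq (.c w * .v) (.c B.g0 * .c w))
    (.and (cm (.c w) (.c B.g10)) (cm (.c w) (.c B.g4)))

theorem c1 : f1.chk = true := by decide +kernel
theorem c2 : f2.chk = true := by decide +kernel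
theorem c3 : f3.chk = true := by decide +kernel
theorem c4 : f4.chk = true := by decide +kernel
theorem cW : (Fm.all LB fW).one = true := by decide +kernel

variable {K : Type*} [Field K] [Finite K] [CharP K 2] {T : TF K} {G : Type*} [Group G] [Finite G]
  {D : CS T G} {s : G}

/-- conjugation by `s` maps `c` to `c'` -/
def Cj (D : CS T G) (s : G) (c c' : Co T) : Prop := s * D.ι c * s⁻¹ = D.ι c'

theorem Cj.one : Cj D s 1 1 := by simp [Cj]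
theorem Cj.mul {c c' d d' : Co T} (h : Cj D s c c') (h' : Cj D s d d') : Cj D s (c * d) (c' * d') := by
  unfold Cj at *
  rw [map_mul, map_mul, ← h, ← h']; group
theorem Cj.fn {c d d' : Co T} (h : Cj D s c d) (h' : Cj D s c d') : d = d' := D.inj (h.symm.trans h')
theorem Cj.inj {c c' d : Co T} (h : Cj D s c d) (h' : Cj D s c' d) : c = c' :=
  D.inj (mul_left_cancel (mul_right_cancel (h.trans h'.symm)))
theorem Cj.comp {t : G} {c d e : Co T} (h : Cj D s c d) (h' : Cj D t d e) : Cj D (t * s) c e := by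
  unfold Cj at *
  rw [← h', ← h]; group
theorem cj_ι {w c d : Co T} (h : w * c = d * w) : Cj D (D.ι w) c d := by
  rw [Cj, mul_inv_eq_iff_eq_mul, ← map_mul, h, map_mul]
theorem Cj.cast {c c' d d' : Co T} (h : Cj D s c c') (e : c = d) (e' : c' = d') : Cj D s d d' :=
  e ▸ e' ▸ h
theorem Cj.sel {c d : Co T} (h : Cj D s c d) (t : K) : Cj D s (selC t c) (selC t d) := by
  unfold selC; split_ifs; exacts [h, Cj.one]

theorem Cj.wd {x x' : Co T} {a b c a' b' c' : Ex} (ha : Cj D s (a.ev x) (a'.ev x'))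
    (hb : Cj D s (b.ev x) (b'.ev x')) (hc : Cj D s (c.ev x) (c'.ev x')) (w : List ℕ) :
    Cj D s ((wd a b c w).ev x) ((wd a' b' c' w).ev x') := by
  induction w with
  | nil => exact Cj.one
  | cons i w ih =>
    refine Cj.mul ?_ ih
    rcases i with _ | _ | i
    exacts [ha, hb, hc]

theorem cj_all (hK : ∀ a : K, a = 0 ∨ a = 1) {B : Tw ℕ} (hB : B ∈ LB) (h0 : Cj D s (el T 1) (el T B.g0))
    (h10 : Cj D s (el T 1024) (el T B.g10)) (h4 : Cj D s (el T 16) (el T B.g4)) (c : Co T) :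
    Cj D s c (apC (elT T B) c) := by
  have r := sem_all.1 (Fm.of_one (T := T) cW)
  have l := sem_all.1 (r gen (by simp [LB, gen]))
  replace r := sem_all.1 (r B hB)
  have k : ∀ {w n m}, (Fm.eq (wd (.c 1) (.c 1024) (.c 16) w) (.c n)).sem (1 : Co T) →
      (Fm.eq (wd (.c B.g0) (.c B.g10) (.c B.g4) w) (.c m)).sem (1 : Co T) → ∀ t : K,
      Cj D s (selC t (el T n)) (selC t (el T m)) := fun {w _ _} a b t =>
    ((Cj.wd (a := .c 1) (b := .c 1024) (c := .c 16) (a' := .c B.g0) (b' := .c B.g10) (c' := .c B.g4)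
      h0 h10 h4 w).cast a b).sel t
  simp only [List.forall_mem_cons, gen] at l r
  obtain ⟨l1, l2, l3, l5, l6, l7, l8, l9, l11, -⟩ := l
  obtain ⟨r1, r2, r3, r5, r6, r7, r8, r9, r11, -⟩ := r
  refine Cj.cast ?_ (nf' hK c) rfl
  simp only [apC, elT, gen]
  exact (((((((((((h0.sel _).mul (k l1 r1 _)).mul (k l2 r2 _)).mul (k l3 r3 _)).mul (h4.sel _)).mul
    (k l5 r5 _)).mul (k l6 r6 _)).mul (k l7 r7 _)).mul (k l8 r8 _)).mul (k l9 r9 _)).mul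
    (h10.sel _)).mul (k l11 r11 _)

theorem sep' (bc : BC D) (c u c' : Co T) : D.ι c * D.n8 * D.ι u ≠ D.ι c' := by
  simpa using bc.sep c 1 u c' 1

theorem uu_mem (b a : K) : uu T b a ∈ sU8 T := by simp [mem_sU8, uu]

theorem uniq (hK : ∀ a : K, a = 0 ∨ a = 1) (bc : BC D) {c c' u u' : Co T} (hu : u ∈ sU8 T)
    (hu' : u' ∈ sU8 T) (h : D.ι c * D.n8 * D.ι u = D.ι c' * D.n8 * D.ι u') : u = u' ∧ c = c' := by
  have e : u = u' := by
    by_contra hne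
    obtain ⟨t, -, -, -, -, e⟩ := rank8' D hK (mul_mem hu (inv_mem hu')) (by rwa [Ne, mul_inv_eq_one])
    refine sep' bc _ _ (c⁻¹ * c') (e.symm.trans ?_)
    rw [map_mul, map_mul, map_inv, map_inv]
    calc _ = (D.ι c)⁻¹ * (D.ι c * D.n8 * D.ι u) * (D.ι u')⁻¹ * D.n8 := by group
      _ = (D.ι c)⁻¹ * D.ι c' * (D.n8 * D.n8) := by rw [h]; group
      _ = _ := by rw [D.n8_sq, mul_one]
  rw [e] at h
  exact ⟨e, D.inj (mul_right_cancel (mul_right_cancel h))⟩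

theorem n8_q {c : Co T} (hc : c ∈ sQ T) : D.n8 * D.ι c = D.ι c.nu8 * D.n8 := by
  rw [← D.n8_conj c hc, mul_assoc, D.n8_sq, mul_one]

/-- `s` normalises `C` and `S` -/
structure Nm (D : CS T G) (s : G) : Prop where
  nC : s ∈ normalizer (D.C : Set G)
  nS : s ∈ normalizer (D.S : Set G)

theorem Nm.adj (h : Nm D s) (w : Co T) : Nm D (D.ι w * s) :=
  ⟨mul_mem (le_normalizer (D.ι_mem w)) h.nC, mul_mem (le_normalizer ⟨w, rfl⟩) h.nS⟩

theorem Nm.ex (h : Nm D s) (c : Co T) : ∃ c', Cj D s c c' :=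
  let ⟨c', e⟩ := (mem_normalizer_iff.1 h.nS _).1 ⟨c, rfl⟩; ⟨c', e.symm⟩

theorem Nm.exQ (bc : BC D) (h : Nm D s) {c : Co T} (hc : c ∈ sQ T) : ∃ c' ∈ sQ T, Cj D s c c' :=
  let ⟨c', h1, e⟩ := (mem_normalizer_iff.1 (H55.Oc.bh_nC bc (X := sQ T) (by simp) h.nC) _).1
    (mem_map_of_mem _ hc); ⟨c', h1, e.symm⟩

theorem cenT (bc : BC D) {t : ℕ} (ht : t ∈ [0, 32]) :
    (∀ g ∈ D.C, g * D.ι (el T t) = D.ι (el T t) * g) ∧ D.ι (el T t) * D.ι (el T t) = 1 := by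
  have : ∃ a, el T t = x4 T a := by
    simp only [List.mem_cons, List.not_mem_nil, or_false] at ht
    rcases ht with rfl | rfl
    exacts [⟨0, rfl⟩, ⟨1, rfl⟩]
  obtain ⟨a, e⟩ := this
  rw [e]
  exact ⟨fun g hg => bc.cenZ g hg a, H55.Oc.Z_sq ⟨_, H55.Oc.x4_mem a, rfl⟩⟩

theorem zz {z n y : G} (h1 : n * z = z * n) (h2 : y * z = z * y) (h3 : z * z = 1) :
    z * n * y * (z * n) = n * y * n := by
  calc _ = z * (n * (y * z)) * n := by group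
    _ = z * (n * z) * y * n := by rw [h2]; group
    _ = _ := by rw [h1, ← mul_assoc, h3, one_mul]

theorem step2 (hK : ∀ a : K, a = 0 ∨ a = 1) (bc : BC D) (h : Nm D s) : ∃ w, ∃ t ∈ [0, 32],
    (D.ι w * s) * D.n8 * (D.ι w * s)⁻¹ = D.ι (el T t) * D.n8 := by
  have p1 : ∀ p : T0 T, p = 1 := fun p => Subtype.ext (Prod.ext (unit_eq hK _) (unit_eq hK _))
  rcases (bc.bruhat _).1 ((mem_normalizer_iff.1 h.nC _).1 D.n8_mem) with ⟨c, p, e⟩ | ⟨c, p, u, -, e⟩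
  · rw [p1 p, map_one, mul_one] at e
    obtain ⟨c', e'⟩ := (mem_normalizer_iff.1 h.nS D.n8).2 ⟨c, e.symm⟩
    exact absurd (by simpa using e'.symm) (sep' bc 1 1 c')
  rw [p1 p, map_one, mul_one] at e
  have e1 : D.ι u * s * D.n8 * (D.ι u * s)⁻¹ = D.ι (u * c) * D.n8 := by
    rw [map_mul]
    calc _ = D.ι u * (s * D.n8 * s⁻¹) * (D.ι u)⁻¹ := by group
      _ = _ := by rw [e]; group
  generalize u * c = q at e1
  have e2 : D.ι (q * q.nu8) * (D.n8 * D.ι (uu T q.b8 q.a8) * D.n8) = 1 := by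
    rw [map_mul]
    calc _ = D.ι q * (D.ι q.nu8 * D.n8 * D.ι (uu T q.b8 q.a8)) * D.n8 := by group
      _ = D.ι q * D.n8 * (D.ι q * D.n8) := by rw [← n8_mul]; group
      _ = D.ι u * s * (D.n8 * D.n8) * (D.ι u * s)⁻¹ := by rw [← e1]; group
      _ = 1 := by rw [D.n8_sq]; group
  have e3 : uu T q.b8 q.a8 = 1 := by
    by_contra hne
    obtain ⟨t, -, -, -, -, e⟩ := rank8' D hK (uu_mem _ _) hne
    rw [e, ← mul_assoc, ← mul_assoc, ← map_mul, ← map_one D.ι] at e2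
    exact sep' bc _ _ _ e2
  rw [e3, map_one, mul_one, D.n8_sq, mul_one, ← map_one D.ι] at e2
  have r := Fm.of_chk hK c1 q
  simp only [f1, sem_all, sem_imp, sem_ex, sem_inQ, sem_cm, Fm.sem, Ex.ev, ev_mul] at r
  obtain ⟨w, -, t, ht, h1, h2⟩ := r ⟨⟨congrArg Co.b8 e3, congrArg Co.a8 e3⟩, D.inj e2⟩
  refine ⟨el T w * u, t, ht, ?_⟩
  have h3 := congrArg D.ι h2
  rw [map_mul, map_mul] at h3
  rw [map_mul]
  calc _ = D.ι (el T w) * (D.ι u * s * D.n8 * (D.ι u * s)⁻¹) * (D.ι (el T w))⁻¹ := by group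
    _ = D.ι (el T t) * (D.ι (el T w).nu8 * D.n8) * (D.ι (el T w))⁻¹ := by
      rw [e1, ← mul_assoc, h3]; group
    _ = _ := by rw [← n8_q h1]; group

theorem rk_y8 (hK : ∀ a : K, a = 0 ∨ a = 1) :
    D.n8 * D.ι (el T 1024) * D.n8 = D.ι (el T 1024) * D.n8 * D.ι (el T 1024 * el T 1024) := by
  obtain ⟨t, ht, e, -, -, h⟩ := rank8' D hK (u := el T 1024) (uu_mem 1 0)
    fun e => one_ne_zero (congrArg Co.b8 e)
  simp only [LK, List.mem_cons, List.not_mem_nil, or_false] at ht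
  rcases ht with rfl | rfl | rfl
  · rw [ck_spec (c := 2048) (by decide +kernel)]; exact h
  · exact absurd (congrArg Co.b8 e) one_ne_zero
  · exact absurd (congrArg Co.a8 e) zero_ne_one

theorem step3 (hK : ∀ a : K, a = 0 ∨ a = 1) (bc : BC D) (h : Nm D s) {t : ℕ} (ht : t ∈ [0, 32])
    (e : s * D.n8 * s⁻¹ = D.ι (el T t) * D.n8) : ∃ w, ∃ y ∈ [1024, 1040, 1056, 1072],
    (D.ι w * s) * D.n8 * (D.ι w * s)⁻¹ = D.ι (el T t) * D.n8 ∧ Cj D (D.ι w * s) (el T 1024) (el T y) := by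
  obtain ⟨z1, z2⟩ := cenT bc ht
  obtain ⟨y, hy⟩ := h.ex (el T 1024)
  have e1 : D.n8 * D.ι y * D.n8 = D.ι (y * el T t) * (D.n8 * D.ι (y * y)) := by
    have a1 : D.ι (el T t) * D.n8 * D.ι y * (D.ι (el T t) * D.n8) =
        D.ι y * (D.ι (el T t) * D.n8) * D.ι (y * y) := by
      rw [← e, ← hy.mul hy, ← hy]
      calc _ = s * (D.n8 * D.ι (el T 1024) * D.n8) * s⁻¹ := by group
        _ = _ := by rw [rk_y8 hK]; group
    rw [← zz (z1 _ D.n8_mem) (z1 _ (D.ι_mem y)) z2, a1, map_mul D.ι y (el T t)]; group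
  rw [n8_mul D y, n8_mul D (y * y), ← mul_assoc, ← mul_assoc, ← map_mul] at e1
  by_cases hu : uu T y.b8 y.a8 = 1
  · rw [hu, map_one, mul_one, mul_assoc, D.n8_sq, mul_one] at e1
    exact absurd e1.symm (sep' bc _ _ _)
  obtain ⟨k, hk, k1, -, k2, k3⟩ := rank8' D hK (uu_mem _ _) hu
  rw [mul_assoc, mul_assoc, ← mul_assoc D.n8, k3, ← mul_assoc, ← mul_assoc, ← map_mul] at e1
  obtain ⟨k4, k5⟩ := uniq hK bc k2 (uu_mem _ _) e1
  have r := Fm.of_chk hK c2 y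
  simp only [f2, sem_all, sem_imp, sem_ex, sem_inQ, sem_cm, Fm.sem, Ex.ev, ev_mul] at r
  obtain ⟨w, -, y0, h0, ⟨h1, h2⟩, h3⟩ := r t ht k hk ⟨k1, k4, k5⟩
  refine ⟨el T w, y0, h0, ?_, hy.comp (cj_ι h3)⟩
  have h4 := n8_q (D := D) h1
  rw [h2] at h4
  calc _ = D.ι (el T w) * (s * D.n8 * s⁻¹) * (D.ι (el T w))⁻¹ := by group
    _ = D.ι (el T t) * (D.ι (el T w) * D.n8) * (D.ι (el T w))⁻¹ := by
      rw [e, ← mul_assoc, z1 _ (D.ι_mem _)]; group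
    _ = _ := by rw [← h4]; group

theorem Cj.nu8 (bc : BC D) {t : ℕ} (ht : t ∈ [0, 32]) (e : s * D.n8 * s⁻¹ = D.ι (el T t) * D.n8)
    {c c' : Co T} (h : Cj D s c c') (hc : c ∈ sQ T) (hc' : c' ∈ sQ T) : Cj D s c.nu8 c'.nu8 := by
  obtain ⟨z1, z2⟩ := cenT bc ht
  rw [Cj, ← D.n8_conj c hc, ← D.n8_conj c' hc']
  calc _ = (s * D.n8 * s⁻¹) * (s * D.ι c * s⁻¹) * (s * D.n8 * s⁻¹) := by group
    _ = _ := by rw [e, h, zz (z1 _ D.n8_mem) (z1 _ (D.ι_mem _)) z2]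

/-- the classification -/
theorem classify (hK : ∀ a : K, a = 0 ∨ a = 1) (bc : BC D) (hs : s ∈ normalizer (D.C : Set G)) :
    ∃ g ∈ D.C, ∃ B ∈ LB, ∀ c, Cj D (g * s) c (apC (elT T B) c) := by
  obtain ⟨g, hg, hS⟩ := H55.Oc.bh_frat bc hs
  have h : Nm D (g * s) := ⟨mul_mem (le_normalizer hg) hs, hS⟩
  obtain ⟨w1, t, ht, e⟩ := step2 hK bc h
  obtain ⟨w2, y, hy, e, h10⟩ := step3 hK bc (h.adj w1) ht e
  replace h := (h.adj w1).adj w2
  generalize hs' : D.ι w2 * (D.ι w1 * (g * s)) = s' at *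
  have q16 : el T 16 ∈ sQ T := ⟨rfl, rfl⟩
  obtain ⟨c, hc, h4⟩ := h.exQ bc q16
  have e1 : el T 16 * el T 1024 = el T 1024 * el T 16 :=
    Fm.of_one (T := T) (p := cm (.c 16) (.c 1024)) (by decide +kernel)
  have e0 : (el T 16).nu8 = el T 16 :=
    Fm.of_one (T := T) (p := .eq (.n8 (.c 16)) (.c 16)) (by decide +kernel)
  have e3 : el T 16 * el T 16 ≠ 1 :=
    Fm.of_one (T := T) (p := .not (.eq (.mul (.c 16) (.c 16)) (.c 0))) (by decide +kernel)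
  have e4 : el T 1 * el T 16 ≠ el T 16 * el T 1 :=
    Fm.of_one (T := T) (p := .not (cm (.c 1) (.c 16))) (by decide +kernel)
  have e5 : el T 1 * el T 1 = 1 := ck_spec (T := T) (a := 1) (b := 1) (c := 0) (by decide +kernel)
  have r := Fm.of_chk hK c3 c
  simp only [f3, sem_all, sem_imp, sem_ex, sem_inQ, sem_cm, Fm.sem, Ex.ev, ev_mul] at r
  obtain ⟨B, hB, b1, b2⟩ := r y hy ⟨hc, ((h4.nu8 bc ht e q16 hc).cast e0 rfl).fn h4,
    ((h4.mul h10).cast e1 rfl).fn (h10.mul h4), fun e => e3 (((h4.mul h4).cast rfl e).inj Cj.one)⟩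
  clear r
  replace h10 : Cj D s' (el T 1024) (el T B.g10) := h10.cast rfl b1
  replace h4 : Cj D s' (el T 16) (el T B.g4) := h4.cast rfl b2
  have q1 : el T 1 ∈ sQ T := ⟨rfl, rfl⟩
  obtain ⟨x, hx, h0⟩ := h.exQ bc q1
  have k := Cj.wd (x := 1) (x' := x) (a := .c 1) (a' := .v) (b := .c 1024) (b' := .c B.g10)
    (c := .c 16) (c' := .c B.g4) h0 h10 h4 WS.g9
  have e2 : (wd (.c 1) (.c 1024) (.c 16) WS.g9).ev (1 : Co T) = (el T 1).nu8 :=
    Fm.of_one (T := T) (p := .eq (wd (.c 1) (.c 1024) (.c 16) WS.g9) (.n8 (.c 1))) (by decide +kernel)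
  have r := Fm.of_chk hK c4 x
  simp only [f4, sem_all, sem_imp, sem_ex, sem_inQ, sem_cm, Fm.sem, Ex.ev, ev_mul] at r
  obtain ⟨w, -, a0, a10, a4⟩ := r B hB ⟨hx, ((h0.mul h0).cast e5 rfl).fn Cj.one,
    fun e => e4 (((h0.mul h4).cast rfl e).inj (h4.mul h0)), (h0.nu8 bc ht e q1 hx).fn (k.cast e2 rfl)⟩
  refine ⟨D.ι (el T w) * (D.ι w2 * (D.ι w1 * g)), mul_mem (D.ι_mem _) (mul_mem (D.ι_mem _)
    (mul_mem (D.ι_mem _) hg)), B, hB, ?_⟩
  rw [mul_assoc, mul_assoc, mul_assoc, hs']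
  exact cj_all hK hB (h0.comp (cj_ι a0)) (h10.comp (cj_ι a10)) (h4.comp (cj_ι a4))

end H5.R3
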