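/- A rank 3 extension of the Ree group over the field with two elements: the element that
interchanges two adjacent points. -/
import Cfsg.Agent.H5.R3C
import Cfsg.Agent.H14.OcBC
import Cfsg.Agent.H19.ParTYB
import Cfsg.Agent.H78.ParId

set_option autoImplicit false
set_option linter.unusedSectionVars false
set_option linter.unusedSimpArgs false

namespace H5.R3
open H63.Oc H65.PA Subgroup

universe u

/-- the surviving automorphism -/
def B0 : Tw ℕ := ⟨9, 14, 4, 8, 48, 32, 64, 448, 256, 576, 1040, 2080⟩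
/-- conjugation by `n₁ n₈ n₁` -/
def hx (e : Ex) : Ex := .n1 (.n8 (.n1 e))
/-- conjugation by the rotation of the triangle -/
def ka (B : Tw ℕ) (d : ℕ) (e : Ex) : Ex := .c d * .ap B (hx e) * .c d

def g1 : Fm := (Fm.all [1024, 2, 16] fun n => cm (.c n) .v).imp <|
  Fm.ex [0, 32, 256, 288] fun n => .eq .v (.c n)
def g2 : Fm := (Fm.all [1024, 128, 16] fun n => cm (.c n) .v).imp <|
  Fm.ex [0, 32, 256, 288, 2048, 2304, 2080, 2336] fun n => .eq .v (.c n)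
def g3 : Fm := (cm .v (.c 2048)).imp <| .and (inQ1 .v) <| .and (inQ (.n1 .v)) <|
  .and (inQ1 (.n8 (.n1 .v))) <| Fm.all LB fun B => .and (cm .v (.ap B (.c 2048)))
    (Fm.all [0, 8] fun d => cm (ka B d .v) (.c 2048))
def g4 : Fm := Fm.all LB fun B => Fm.all [0, 8] fun d =>
  (Fm.and (cm .v (.c 2048)) <| .and (.eq (ka B d .v) .v) <| Fm.all [1024, 128, 16] fun n =>
    .eq (.v * .c n) (ka B d (ka B d (ka B d (.c n))) * .v)).imp <|
  .and (.eq (.ap B (.c 1)) (.c 9)) <| .and (.eq (.ap B (.c 1024)) (.c 1040)) <|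
    .and (.eq (.ap B (.c 16)) (.c 48)) <| .and (.eq (.c d) (.c 8)) (.not (.eq (hx .v * .v) (.c 0)))
def g5 : Fm := .and (.eq (.ap B0 (.ap B0 .v)) .v) ((inQ1 .v).imp (inQ1 (.ap B0 .v)))

theorem d1 : g1.chk = true := by decide +kernel
theorem d2 : g2.chk = true := by decide +kernel
theorem d3 : g3.chk = true := by decide +kernel
theorem d4 : g4.chk = true := by decide +kernel
theorem d5 : g5.chk = true := by decide +kernel
theorem d6 : (Fm.all LB fun B => inQ1 (.ap B (.c 2))).one = true := by decide +kernel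

theorem hK : ∀ a : ZMod 2, a = 0 ∨ a = 1 := by decide

variable {T : TF (ZMod 2)} {G : Type u} [Group G] [Finite G] {Ω : Type*} [MulAction G Ω]
  {A : AD T G} {a b x : Ω} {g s : G} {c : Co T}

theorem one (p : Fm) (h : p.one = true := by decide +kernel) : p.sem (1 : Co T) := Fm.of_one h

theorem bc (A : AD T G) : BC A.toCS := H14.Oc.jobBC _ T G _
theorem ty (A : AD T G) : TY A.toCS := H19.ParTY.jobTY _ T G _ (bc A)

theorem ι_G0 (A : AD T G) (c : Co T) : A.ι c ∈ A.G0 := subset_closure (Or.inl (Or.inl ⟨c, rfl⟩))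
theorem n1_G0 (A : AD T G) : A.n1 ∈ A.G0 := subset_closure (Or.inr (Or.inl rfl))
theorem n8_G0 (A : AD T G) : A.n8 ∈ A.G0 := subset_closure (Or.inr (Or.inr rfl))
theorem C_le (A : AD T G) : A.C ≤ A.G0 := by
  refine (closure_le _).2 ?_
  rintro _ ((⟨c, rfl⟩ | ⟨p, rfl⟩) | rfl)
  exacts [ι_G0 A c, A.tor.h_h0 p ▸ subset_closure (Or.inl (Or.inr ⟨_, rfl⟩)), n8_G0 A]

theorem card_C (A : AD T G) : Nat.card A.C = 20480 := by rw [(bc A).card_C, Nat.card_zmod]; rfl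

theorem cj1 (A : AD T G) (hc : c ∈ sQ1 T) : Cj A.toCS A.n1 c c.nu1 := by
  rw [Cj, inv_eq_of_mul_eq_one_right A.n1_sq]; exact A.n1_conj c hc
theorem cj8 (A : AD T G) (hc : c ∈ sQ T) : Cj A.toCS A.n8 c c.nu8 := by
  rw [Cj, inv_eq_of_mul_eq_one_right A.n8_sq]; exact A.n8_conj c hc

theorem cj46 (A : AD T G) : Cj A.toCS A.n1 (el T 32) (el T 256) :=
  (cj1 A (c := el T 32) rfl).cast rfl (one (.eq (.n1 (.c 32)) (.c 256)))
theorem cj64 (A : AD T G) : Cj A.toCS A.n1 (el T 256) (el T 32) :=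
  (cj1 A (c := el T 256) rfl).cast rfl (one (.eq (.n1 (.c 256)) (.c 32)))
theorem cj66 (A : AD T G) : Cj A.toCS A.n1 (el T 288) (el T 288) :=
  (cj1 A (c := el T 288) rfl).cast rfl (one (.eq (.n1 (.c 288)) (.c 288)))
theorem ne46 : el T 32 ≠ el T 256 := one (.not (.eq (.c 32) (.c 256)))

theorem cj_comm {D : CS T G} (h : Cj D g c c) : g * D.ι c = D.ι c * g := mul_inv_eq_iff_eq_mul.1 h

/-- no element of order three centralises `τ` -/
theorem no3 {P : Subgroup G} (hP : Nat.card P = 20480) (k : G)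
    (h : k⁻¹ * (A.n1 * A.ι (el T 1)) * k ∈ P) : False := by
  have h1 : (k⁻¹ * (A.n1 * A.ι (el T 1)) * k) ^ 20480 = 1 :=
    congrArg Subtype.val (hP ▸ pow_card_eq_one' (x := (⟨_, h⟩ : P)))
  have h2 : (k⁻¹ * (A.n1 * A.ι (el T 1)) * k) ^ 3 = 1 := by
    have := conj_pow (a := k⁻¹) (b := A.n1 * A.ι (el T 1)) (i := 3)
    rw [inv_inv] at this
    rw [this, show (A.n1 * A.ι (el T 1)) ^ 3 = 1 from A.rank1]; group
  have h3 := pow_gcd_eq_one.2 ⟨h1, h2⟩
  rw [show Nat.gcd 20480 3 = 1 by norm_num, pow_one, mul_assoc, inv_mul_eq_one, eq_comm,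
    mul_eq_right] at h3
  have h4 : Cj A.toCS (A.n1 * A.ι (el T 1)) (el T 32) (el T 256) :=
    (cj_ι (one (cm (.c 1) (.c 32)))).comp (cj46 A)
  rw [h3, Cj, inv_one, mul_one, one_mul] at h4
  exact ne46 (A.inj h4)

/-- The geometric hypotheses. -/
structure Geo (A : AD T G) (a b : Ω) : Prop where
  br : A.Braid
  sa : ∀ g, g • a = a ↔ g ∈ A.G0
  sb : ∀ g ∈ A.G0, g • b = b ↔ g ∈ A.C
  ne : b ≠ a
  pts : ∀ x, (∀ c ∈ sV6 T, A.ι c • x = x) → x = a ∨ ∃ k ∈ A.G0, x = k • b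

theorem cen (br : A.Braid) (hg : g ∈ A.G0) : g * A.ι (el T 32) = A.ι (el T 32) * g ↔ g ∈ A.C :=
  ⟨H78.Par.cen_le A br hg, fun h => (bc A).cenZ g h 1⟩

theorem Geo.memC (h : Geo A a b) : g ∈ A.C ↔ g • a = a ∧ g • b = b :=
  ⟨fun e => ⟨(h.sa g).2 (C_le A e), (h.sb g (C_le A e)).2 e⟩,
    fun e => (h.sb g ((h.sa g).1 e.1)).1 e.2⟩

/-- the involution that belongs to the neighbour `x` of `a` -/
def Zp (A : AD T G) (b x : Ω) (c : Co T) : Prop := ∃ k ∈ A.G0, x = k • b ∧ Cj A.toCS k (el T 32) c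

theorem Geo.fix' (h : Geo A a b) {k : G} (hk : k ∈ A.G0) (hg : g ∈ A.G0) : g • k • b = k • b ↔
    g * (k * A.ι (el T 32) * k⁻¹) = k * A.ι (el T 32) * k⁻¹ * g := by
  have h1 : k⁻¹ * g * k ∈ A.G0 := mul_mem (mul_mem (inv_mem hk) hg) hk
  rw [← inv_smul_eq_iff (g := k), ← mul_smul, ← mul_smul, h.sb _ h1, ← cen h.br h1]
  constructor <;> intro e
  · calc _ = k * (k⁻¹ * g * k * A.ι (el T 32)) * k⁻¹ := by group
      _ = _ := by rw [e]; group
  · calc _ = k⁻¹ * (g * (k * A.ι (el T 32) * k⁻¹)) * k := by group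
      _ = _ := by rw [e]; group

theorem Zp.fix (h : Geo A a b) (z : Zp A b x c) (hg : g ∈ A.G0) :
    g • x = x ↔ g * A.ι c = A.ι c * g := by
  obtain ⟨k, hk, rfl, e⟩ := z
  rw [h.fix' hk hg, e]

theorem Zp.fixι (h : Geo A a b) (z : Zp A b x c) (w : Co T) : A.ι w • x = x ↔ w * c = c * w := by
  rw [z.fix h (ι_G0 A w), ← map_mul, ← map_mul, A.inj.eq_iff]

theorem Zp.uniq (h : Geo A a b) {x' : Ω} (z : Zp A b x c) (z' : Zp A b x' c) : x = x' := by
  obtain ⟨k, hk, rfl, e⟩ := z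
  obtain ⟨k', hk', rfl, e'⟩ := z'
  have h1 : k'⁻¹ * k ∈ A.G0 := mul_mem (inv_mem hk') hk
  rw [← inv_smul_eq_iff, ← mul_smul, h.sb _ h1, ← cen h.br h1]
  calc _ = k'⁻¹ * (k * A.ι (el T 32) * k⁻¹) * k := by group
    _ = _ := by rw [e, ← e']; group

theorem Zp.smul {c' : Co T} (z : Zp A b x c) (hg : g ∈ A.G0) (e : Cj A.toCS g c c') :
    Zp A b (g • x) c' :=
  let ⟨_, hk, e1, e2⟩ := z; ⟨_, mul_mem hg hk, by rw [e1, mul_smul], e2.comp e⟩

theorem Zp.ne (h : Geo A a b) (z : Zp A b x c) : x ≠ a := by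
  obtain ⟨k, hk, rfl, -⟩ := z
  rw [Ne, smul_eq_iff_eq_inv_smul, (h.sa _).2 (inv_mem hk)]
  exact h.ne

theorem Zp.ne_one (z : Zp A b x (el T 0)) : False :=
  let ⟨_, _, _, e⟩ := z; (one (T := T) (.not (.eq (.c 32) (.c 0))) :) (e.inj Cj.one)

theorem Zp.ne_five (h : Geo A a b) (z : Zp A b x (el T 64)) : False := by
  obtain ⟨k, hk, -, e⟩ := z
  have h1 : Cj A.toCS (A.n1 * A.ι (el T 1)) (el T 64) (el T 64) :=
    (cj_ι (one (cm (.c 1) (.c 64)))).comp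
      ((cj1 A (c := el T 64) rfl).cast rfl (one (.eq (.n1 (.c 64)) (.c 64))))
  refine no3 (A := A) (card_C A) k ((cen h.br (mul_mem (mul_mem (inv_mem hk)
    (mul_mem (n1_G0 A) (ι_G0 A _))) hk)).1 ?_)
  calc _ = k⁻¹ * (A.n1 * A.ι (el T 1) * (k * A.ι (el T 32) * k⁻¹)) * k := by group
    _ = _ := by rw [e, cj_comm h1, ← e]; group

theorem Zp.ne_48 (h : Geo A a b) (z : Zp A b x (el T 2080)) : False := by
  obtain ⟨g, hg, e⟩ := (ty A).cls26 1 one_ne_zero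
  exact ((z.smul (n1_G0 A) ((cj1 A (c := el T 2080) rfl).cast rfl
    (one (.eq (.n1 (.c 2080)) (.mul (.c 4) (.c 256)))))).smul (C_le A hg) e).ne_five h

theorem Geo.exZ (h : Geo A a b) (hx : ∀ c ∈ sV6 T, A.ι c • x = x) (ha : x ≠ a) : ∃ c, Zp A b x c := by
  obtain ⟨k, hk, rfl⟩ := (h.pts x hx).resolve_left ha
  have h1 := (h.fix' hk (ι_G0 A _)).1 (hx (el T 32) ⟨rfl, rfl, rfl, rfl, rfl, rfl, rfl⟩)
  have h2 := (h.fix' hk (ι_G0 A _)).1 (hx (el T 256) ⟨rfl, rfl, rfl, rfl, rfl, rfl, rfl⟩)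
  obtain ⟨c, -, e⟩ := ((ty A).c6 _ ((cen h.br (mul_mem (mul_mem hk (ι_G0 A _)) (inv_mem hk))).1
    h1.symm)).1 h2.symm
  exact ⟨c, k, hk, rfl, e.symm⟩

variable (A a b) in
/-- the four points fixed by `Q₁` -/
def pt : Fin 4 → Ω := ![a, b, A.n1 • b, A.ι (el T 1) • A.n1 • b]

theorem z1 : Zp A b (pt A a b 1) (el T 32) := ⟨1, one_mem _, (one_smul _ _).symm, by simp [Cj]⟩
theorem z2 : Zp A b (pt A a b 2) (el T 256) := (z1 (a := a)).smul (n1_G0 A) (cj46 A)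
theorem z3 : Zp A b (pt A a b 3) (el T 288) := (z2 (a := a)).smul (ι_G0 A _)
  (cj_ι (one (.eq (.mul (.c 1) (.c 256)) (.mul (.c 288) (.c 1)))))

theorem Geo.pt_inj (h : Geo A a b) : Function.Injective (pt A a b) := by
  have f : ∀ {i j : Fin 4} {m n : ℕ} (w : ℕ), Zp A b (pt A a b i) (el T m) → Zp A b (pt A a b j) (el T n) →
      (Fm.and (cm (.c w) (.c m)) (.not (cm (.c w) (.c n)))).one = true → pt A a b i ≠ pt A a b j :=
    fun w zi zj k e => (one (T := T) _ k).2 ((zj.fixι h _).1 (e ▸ (zi.fixι h _).2 (one (T := T) _ k).1))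
  have h12 := f 1 z1 z2 (by decide +kernel)
  have h13 := f 1 z1 z3 (by decide +kernel)
  have h23 : pt A a b 2 ≠ pt A a b 3 := fun e => ne46 <| (cj64 A).fn <| mul_inv_eq_iff_eq_mul.2 <|
    ((z2 (a := a)).fix h (n1_G0 A)).1 <| e ▸ ((z3 (a := a)).fix h (n1_G0 A)).2 (cj_comm (cj66 A))
  have h1 : pt A a b 1 ≠ pt A a b 0 := z1.ne h
  have h2 : pt A a b 2 ≠ pt A a b 0 := z2.ne h
  have h3 : pt A a b 3 ≠ pt A a b 0 := z3.ne h
  intro i j e
  fin_cases i <;> fin_cases j <;>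
    first | rfl | exact absurd e (by assumption) | exact absurd e.symm (by assumption)

theorem V6_le : sV6 T ≤ sQ1 T := fun _ h => h.1

theorem Geo.fixQ (h : Geo A a b) (hx : ∀ c ∈ sQ1 T, A.ι c • x = x) : ∃ i, x = pt A a b i := by
  by_cases ha : x = a
  · exact ⟨0, ha⟩
  obtain ⟨c, z⟩ := h.exZ (fun c hc => hx c (V6_le hc)) ha
  have r := Fm.of_chk hK d1 c
  simp only [g1, sem_all, sem_imp, sem_ex, sem_cm, Fm.sem, Ex.ev, List.forall_mem_cons,
    List.exists_mem_cons_iff] at r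
  rcases r ⟨(z.fixι h _).1 (hx _ rfl), (z.fixι h _).1 (hx _ rfl), (z.fixι h _).1 (hx _ rfl), by simp⟩
    with rfl | rfl | rfl | rfl | ⟨_, ⟨⟩, -⟩
  exacts [z.ne_one.elim, ⟨1, z.uniq h z1⟩, ⟨2, z.uniq h z2⟩, ⟨3, z.uniq h z3⟩]

variable (A a b) in
/-- the action on the four points -/
def Ac (g : G) (π : Equiv.Perm (Fin 4)) : Prop := ∀ i, g • pt A a b i = pt A a b (π i)

theorem Ac.mul {g' : G} {π π' : Equiv.Perm (Fin 4)} (h : Ac A a b g π) (h' : Ac A a b g' π') :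
    Ac A a b (g * g') (π * π') := fun i => by rw [mul_smul, h', h]; rfl
theorem Ac.inv {π : Equiv.Perm (Fin 4)} (h : Ac A a b g π) : Ac A a b g⁻¹ π⁻¹ := fun i => by
  rw [inv_smul_eq_iff, h]; simp
theorem Geo.ker (h : Geo A a b) (h0 : g • a = a) (h1 : g • b = b) (h2 : g • pt A a b 2 = pt A a b 2) :
    ∃ c ∈ sQ1 T, A.ι c = g :=
  ((ty A).c6 _ (h.memC.2 ⟨h0, h1⟩)).1 (((z2 (a := a)).fix h ((h.sa _).1 h0)).1 h2)
theorem Ac.eq (h : Geo A a b) {g' : G} {π : Equiv.Perm (Fin 4)} (h1 : Ac A a b g π)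
    (h2 : Ac A a b g' π) : ∃ c ∈ sQ1 T, g = A.ι c * g' := by
  have := h1.mul h2.inv
  rw [mul_inv_cancel] at this
  obtain ⟨c, hc, e⟩ := h.ker (this 0) (this 1) (this 2)
  exact ⟨c, hc, by rw [e]; group⟩
theorem Geo.acQ (h : Geo A a b) (hc : c ∈ sQ1 T) : Ac A a b (A.ι c) 1 := fun i => by
  have e : c * el T 256 = el T 256 * c := (sem_inQ1 (x := c) (a := .v)).2 hc
  have e4 : c * el T 32 = el T 32 * c := H78.Par.x4_comm c 1
  have e' : el T 32 * el T 256 = el T 288 := one (.eq (.mul (.c 32) (.c 256)) (.c 288))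
  fin_cases i
  exacts [(h.sa _).2 (ι_G0 A c), (z1.fixι h c).2 e4, (z2.fixι h c).2 e, (z3.fixι h c).2 (by
    rw [← e', ← mul_assoc, e4, mul_assoc, mul_assoc, e])]
theorem x1_sq (A : AD T G) : A.ι (el T 1) * A.ι (el T 1) = 1 := by
  rw [← map_mul, ← map_one A.ι]; exact congrArg A.ι (one (.eq (.mul (.c 1) (.c 1)) (.c 0)))
theorem Geo.acx (h : Geo A a b) : Ac A a b (A.ι (el T 1)) (Equiv.swap 2 3) := fun i => by
  fin_cases i
  exacts [(h.sa _).2 (ι_G0 A _), (z1.fixι h _).2 (H78.Par.x4_comm _ 1), rfl,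
    (mul_smul _ _ _).symm.trans (by rw [x1_sq, one_smul]; rfl)]
theorem Geo.acn (h : Geo A a b) : Ac A a b A.n1 (Equiv.swap 1 2) := fun i => by
  fin_cases i
  exacts [(h.sa _).2 (n1_G0 A), rfl, (mul_smul _ _ _).symm.trans (by rw [A.n1_sq, one_smul]; rfl),
    (z3.fix h (n1_G0 A)).2 (cj_comm (cj66 A))]

/-- the rotation of the triangle -/
theorem Geo.tri (h : Geo A a b) (ha : s • a = b) (hb : s • b = a) {B : Tw ℕ} (hB : B ∈ LB)
    (hs : ∀ c, Cj A.toCS s c (apC (elT T B) c)) :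
    (∀ c, Cj A.toCS s c (apC (elT T B0) c)) ∧ s * s ≠ 1 := by
  obtain ⟨n, hn⟩ : ∃ n, n = A.n1 * (A.n8 * A.n1) := ⟨_, rfl⟩
  have nG : n ∈ A.G0 := hn ▸ mul_mem (n1_G0 A) (mul_mem (n8_G0 A) (n1_G0 A))
  have nn : n * n = 1 := by
    calc _ = A.n1 * (A.n8 * (A.n1 * A.n1) * A.n8) * A.n1 := by rw [hn]; group
      _ = 1 := by rw [A.n1_sq, mul_one, A.n8_sq, mul_one, A.n1_sq]
  have r3 := fun c : Co T => Fm.of_chk hK d3 c
  simp only [g3, sem_all, sem_imp, sem_cm, sem_inQ, sem_inQ1, Fm.sem, Ex.ev] at r3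
  have cn : ∀ c, c * el T 2048 = el T 2048 * c → Cj A.toCS n c c.nu1.nu8.nu1 := fun c hc =>
    hn ▸ ((cj1 A (r3 c hc).1).comp (cj8 A (r3 c hc).2.1)).comp (cj1 A (r3 c hc).2.2.1)
  have ze : Zp A b (n • b) (el T 2048) := (z1 (a := a)).smul nG
    ((cn _ (one (cm (.c 32) (.c 2048)))).cast rfl (one (.eq (hx (.c 32)) (.c 2048))))
  have fx : ∀ c, c * el T 2048 = el T 2048 * c → A.ι c • s • n • b = s • n • b := fun c hc => by
    rw [← inv_smul_eq_iff (g := s), ← mul_smul, ← mul_smul]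
    refine (ze.fix h ((h.sa _).1 ?_)).2 ?_
    · rw [mul_smul, mul_smul, ha, (h.memC.1 (A.ι_mem c)).2, inv_smul_eq_iff, ha]
    · have e := congrArg A.ι ((r3 c hc).2.2.2 B hB).1
      rw [map_mul, map_mul, ← hs] at e
      calc _ = s⁻¹ * (A.ι c * (s * A.ι (el T 2048) * s⁻¹)) * s := by group
        _ = _ := by rw [e]; group
  have nb : n • b ≠ b := fun e => (one (T := T) (.not (cm (.c 1) (.c 2048))) :) <|
    (ze.fixι h _).1 (e.symm ▸ (h.memC.1 (A.ι_mem _)).2)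
  obtain ⟨c, z⟩ := h.exZ (x := s • n • b) (fun c hc => fx c (by
    obtain ⟨h1, h2, h3, h4, h5, h6, h7⟩ := hc
    show c * x8 T 1 = x8 T 1 * c
    ext <;> simp [x8, *, add_comm])) fun e => nb (MulAction.injective s (e.trans hb.symm))
  have nf : ∀ i, s • n • b ≠ pt A a b i := fun i e => (one (T := T) (.not (cm (.c 2) (.c 2048))) :) <|
    (ze.fixι h (el T 2)).1 <| (smul_left_cancel_iff s).1 <| by
      rw [← mul_smul, mul_inv_eq_iff_eq_mul.1 (hs _), mul_smul, e]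
      exact h.acQ (sem_inQ1.1 (sem_all.1 (Fm.of_one d6) B hB)) i
  obtain ⟨d, hd, zd⟩ : ∃ d ∈ [0, 8], Zp A b (A.ι (el T d) • s • n • b) (el T 2048) := by
    have r := Fm.of_chk hK d2 c
    simp only [g2, sem_all, sem_imp, sem_ex, sem_cm, Fm.sem, Ex.ev, List.forall_mem_cons,
      List.exists_mem_cons_iff] at r
    rcases r ⟨(z.fixι h _).1 (fx _ (one (cm (.c 1024) (.c 2048)))),
      (z.fixι h _).1 (fx _ (one (cm (.c 128) (.c 2048)))),
      (z.fixι h _).1 (fx _ (one (cm (.c 16) (.c 2048)))), by simp⟩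
      with rfl | rfl | rfl | rfl | rfl | rfl | rfl | rfl | ⟨_, ⟨⟩, -⟩
    exacts [z.ne_one.elim, (nf 1 (z.uniq h z1)).elim, (nf 2 (z.uniq h z2)).elim,
      (nf 3 (z.uniq h z3)).elim,
      ⟨0, by simp, z.smul (ι_G0 A _) (cj_ι (one (cm (.c 0) (.c 2048))))⟩,
      ⟨8, by simp, z.smul (ι_G0 A _) (cj_ι (one (.eq (.mul (.c 8) (.c 2304)) (.mul (.c 2048) (.c 8)))))⟩,
      (z.ne_48 h).elim, ((z.smul (ι_G0 A _) (cj_ι (one
        (.eq (.mul (.c 8) (.c 2336)) (.mul (.c 2080) (.c 8)))))).ne_48 h).elim]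
  have dd : el T d * el T d = 1 :=
    sem_all.1 (one (T := T) (Fm.all [0, 8] fun d => .eq (.mul (.c d) (.c d)) (.c 0))) d hd
  obtain ⟨k, hk⟩ : ∃ k, k = A.ι (el T d) * s * n := ⟨_, rfl⟩
  have k0 : k • a = b := by
    rw [hk, mul_smul, mul_smul, (h.sa _).2 nG, ha, (h.memC.1 (A.ι_mem _)).2]
  have k1 : k • b = n • b := by rw [hk, mul_smul, mul_smul]; exact zd.uniq h ze
  have k2 : k • n • b = a := by
    rw [hk, ← mul_smul, mul_assoc, nn, mul_one, mul_smul, hb, (h.memC.1 (A.ι_mem _)).1]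
  have ck : ∀ c, c * el T 2048 = el T 2048 * c → Cj A.toCS k c ((ka B d .v).ev c) := fun c hc => by
    rw [hk, mul_assoc]
    refine ((cn c hc).comp (hs _)).comp (cj_ι ?_)
    simp only [ka, hx, Ex.ev, mul_assoc, dd, mul_one]
  have kc : ∀ c, c * el T 2048 = el T 2048 * c →
      (ka B d .v).ev c * el T 2048 = el T 2048 * (ka B d .v).ev c := fun c hc =>
    ((r3 c hc).2.2.2 B hB).2 d hd
  have kC : k * (k * k) ∈ A.C := h.memC.2 ⟨by rw [mul_smul, mul_smul, k0, k1, k2],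
    by rw [mul_smul, mul_smul, k1, k2, k0]⟩
  have k8 := (ze.fix h (C_le A kC)).1 (by rw [mul_smul, mul_smul, k2, k0, k1])
  obtain ⟨ρ, -, eρ⟩ := ((ty A).c8 0 _ kC).1 (by rw [show x4 T 0 = 1 from rfl, one_mul]; exact k8)
  have ρ8 : ρ * el T 2048 = el T 2048 * ρ := A.inj (by rw [map_mul, map_mul, eρ]; exact k8)
  have r := Fm.of_chk hK d4 ρ
  have ek : ∀ (e : Ex) (x : Co T), (ka B d e).ev x = (ka B d .v).ev (e.ev x) := fun _ _ => by
    simp only [ka, hx, Ex.ev]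
  simp only [g4, sem_all, sem_imp, sem_cm, Fm.sem, Ex.ev] at r
  obtain ⟨e1, e2, e3, e4, e5⟩ := r B hB d hd ⟨ρ8, (ck ρ ρ8).fn (by rw [Cj, eρ]; group), fun m hm => by
    have m8 : el T m * el T 2048 = el T 2048 * el T m :=
      sem_all.1 (one (T := T) (Fm.all [1024, 128, 16] fun d => cm (.c d) (.c 2048))) m hm
    have := ((ck _ m8).comp (ck _ (kc _ m8))).comp (ck _ (kc _ (kc _ m8)))
    rw [Cj, ← eρ, mul_inv_eq_iff_eq_mul, ← map_mul, ← map_mul] at this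
    rw [ek, ek _ ρ, ek _ ρ]
    exact A.inj this⟩
  have h8 : Cj A.toCS s (el T 8) (el T 8) → s * s ≠ 1 := fun h8 ss => e5 <| A.inj <| by
    have e6 : el T d = el T 8 := e4
    rw [e6] at hk dd
    have e7 : A.ι (el T 8) * s * (A.ι (el T 8) * s) = 1 := by
      rw [mul_assoc, ← mul_assoc s, cj_comm h8, ← mul_assoc, ← mul_assoc, ← map_mul, dd, map_one, one_mul,
        ss]
    show A.ι (ρ.nu1.nu8.nu1 * ρ) = A.ι 1
    rw [map_mul, ← cn ρ ρ8, eρ, hk, map_one, inv_eq_of_mul_eq_one_right nn]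
    generalize A.ι (el T 8) * s = t at e7
    calc _ = n * (t * (n * (t * (n * (t * (n * n) * t) * n) * t) * n) * t) * n := by group
      _ = 1 := by simp only [nn, e7, mul_one]
  have hs' := cj_all hK (B := B0) (by simp [LB, B0]) ((hs _).cast rfl e1) ((hs _).cast rfl e2)
    ((hs _).cast rfl e3)
  exact ⟨hs', h8 ((hs' _).cast rfl (one (.eq (.ap B0 (.c 8)) (.c 8))))⟩

/-- The element that interchanges `a` and `b`. -/
structure Sw (A : AD T G) (a b : Ω) (s : G) : Prop where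
  ac : Ac A a b s (Equiv.swap 0 1 * Equiv.swap 2 3)
  cj : ∀ c, Cj A.toCS s c (apC (elT T B0) c)
  sq : s * s = A.ι (el T 32)

theorem Geo.exists_sw (h : Geo A a b) (ha : s • a = b) (hb : s • b = a) : ∃ s, Sw A a b s := by
  obtain ⟨g, hg, B, hB, hs⟩ := classify (s := s) hK (bc A) (mem_normalizer_iff.2 fun g => by
    rw [h.memC, h.memC, mul_smul, mul_smul, mul_smul, mul_smul, inv_smul_eq_iff.2 hb.symm,
      inv_smul_eq_iff.2 ha.symm, ← hb, ← ha, smul_left_cancel_iff, smul_left_cancel_iff, ha, hb, and_comm])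
  replace ha : (g * s) • a = b := by rw [mul_smul, ha, (h.memC.1 hg).2]
  replace hb : (g * s) • b = a := by rw [mul_smul, hb, (h.memC.1 hg).1]
  generalize g * s = s at ha hb hs
  obtain ⟨hs, h1⟩ := h.tri ha hb hB hs
  have r := fun c : Co T => Fm.of_chk hK d5 c
  simp only [g5, sem_imp, sem_inQ1, Fm.sem, Ex.ev] at r
  have sq : s * s = A.ι (el T 32) := by
    obtain ⟨z, hz, e⟩ := (bc A).cenQ (s * s) (h.memC.2 ⟨by rw [mul_smul, ha, hb],
      by rw [mul_smul, hb, ha]⟩) fun c _ => cj_comm (((hs c).comp (hs _)).cast rfl (r c).1)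
    rw [H55.Oc.eq_x4 hz] at e
    rcases hK z.a4 with e' | e' <;> rw [e'] at e
    · exact absurd (e.symm.trans (map_one _)) h1
    · exact e.symm
  have f : ∀ i, ∃ j, s • pt A a b i = pt A a b j := fun i => h.fixQ fun c hc => by
    rw [← mul_smul, ← mul_inv_eq_iff_eq_mul.1 ((hs _).cast rfl (r c).1), mul_smul,
      h.acQ ((r c).2 hc) i]; rfl
  have h2 : s • pt A a b 2 = pt A a b 3 := by
    obtain ⟨j, e⟩ := f 2
    fin_cases j
    · exact absurd (h.pt_inj (MulAction.injective s (e.trans hb.symm) : pt A a b 2 = pt A a b 1))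
        (by decide)
    · exact absurd (h.pt_inj (MulAction.injective s (e.trans ha.symm) : pt A a b 2 = pt A a b 0))
        (by decide)
    · have k0 : (s * A.n1) • a = b := by rw [mul_smul, (h.sa _).2 (n1_G0 A), ha]
      have k1 : (s * A.n1) • b = pt A a b 2 := (mul_smul _ _ _).trans e
      have k2 : (s * A.n1) • pt A a b 2 = a := by rw [mul_smul, h.acn 2]; exact hb
      have c1 := (cj46 A).comp ((hs _).cast rfl (one (.eq (.ap B0 (.c 256)) (.c 256))))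
      have c2 := (cj64 A).comp ((hs _).cast rfl (one (.eq (.ap B0 (.c 32)) (.c 32))))
      have c3 := (c1.comp c2).comp c1
      generalize s * A.n1 = k at *
      refine absurd (c3.fn (mul_inv_eq_iff_eq_mul.2 ((bc A).cenZ _ (h.memC.2 ⟨?_, ?_⟩) 1))).symm ne46
      · rw [mul_smul, mul_smul, k0, k1, k2]
      · rw [mul_smul, mul_smul, k1, k2, k0]
    · exact e
  refine ⟨s, fun i => ?_, hs, sq⟩
  fin_cases i
  exacts [ha, hb, h2, by
    show s • pt A a b 3 = pt A a b 2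
    rw [← h2, ← mul_smul, sq]; exact h.acQ (c := el T 32) rfl 2]

end H5.R3
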