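/- A rank 3 extension of the Ree group over the field with two elements: the Sylow 2-subgroup. -/
import Cfsg.Agent.H5.R3G
import Cfsg.Agent.H5.RuSpec

set_option autoImplicit false
set_option linter.unusedSectionVars false
set_option linter.unusedSimpArgs false
set_option linter.unusedVariables false

namespace H5.R3
open H63.Oc H65.PA Subgroup H5.Ru

universe u

def b1 (e : Ex) : Ex := .n1 (.ap B0 (.n1 e))
def b2 (e : Ex) : Ex := .c 1 * b1 (.c 1 * e * .c 1) * .c 1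
/-- the action of the coset representatives -/
def bb (i : ℕ) (e : Ex) : Ex := [e, b1 e, b2 e].getD i (b1 (b2 e))
/-- the factor set -/
def cc (i k : ℕ) : ℕ := ([[0, 0, 0, 0], [0, 256, 0, 256], [0, 64, 288, 352], [0, 320, 288, 96]].getD i []).getD k 0
def omul (x y : Ex × ℕ) : Ex × ℕ := (x.1 * bb x.2 y.1 * .c (cc x.2 y.2), Nat.xor x.2 y.2)
/-- conjugation by `x₁` -/
def xmul (x : Ex × ℕ) : Ex × ℕ :=
  (.c 1 * x.1 * .c 1 * .c ([0, 0, 0, 64].getD x.2 0), [0, 2, 1, 3].getD x.2 0)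
noncomputable def oeq (x y : Ex × ℕ) : Bool := Nat.beq x.2 y.2 && (Fm.eq x.1 y.1).one
def opr (t : ℕ → Ex × ℕ) (x n : ℕ) : Ex × ℕ :=
  Nat.rec (.c 0, 0) (fun k ih => cond (Nat.testBit x k) (omul ih (t k)) ih) n
/-- the generators of `W` -/
def gN (k : ℕ) : ℕ × ℕ := [(2704, 1), (2156, 2), (656, 1), (788, 2), (2072, 1), (2752, 2), (888, 1),
  (752, 2), (32, 0), (256, 0), (64, 0)].getD k (0, 0)
def gg (k : ℕ) : Ex × ℕ := (.c (gN k).1, (gN k).2)
def opv (c : ℕ) : Ex × ℕ := opr (fun k => gg (8 + k)) c 3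

def m1 : Fm := (Fm.and (inQ1 .v) (Fm.all [1024, 2, 16] fun n =>
  .eq (b1 (b2 (.c n)) * .v) (.v * .ap B0 (.c n)))).imp (.eq (.v * .ap B0 .v * .c 32) (.c 96))

theorem e1 : m1.chk = true := by decide +kernel
theorem e2 : allN (fun i => allN (fun k =>
  oeq (omul (gg i) (gg (8 + k))) (omul (gg (8 + k)) (gg i))) 3) 11 = true := by decide +kernel
theorem e3 : allN (fun k => oeq (omul (gg (8 + k)) (gg (8 + k))) (.c 0, 0)) 3 = true := by decide +kernel
theorem e4 : allN (fun i => oeq (omul (gg i) (gg i)) (opv (bt (2 ^ i) (2 ^ i)))) 8 = true := by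
  decide +kernel
theorem e5 : allN (fun i => allN (fun j => oeq (omul (gg i) (gg j))
  (omul (omul (gg j) (gg i)) (opv (bt (2 ^ i) (2 ^ j))))) i) 8 = true := by decide +kernel
theorem e6 : allN (fun k => oeq (xmul (gg k)) (opr gg (al 1 (Ru.gen k)).val 11)) 8 = true := by
  decide +kernel
theorem e7 : allN (fun k => oeq (omul (.c 1024, 0) (gg k)) (omul (opr gg
  (al 2 (Ru.gen k) * Ru.nu ([0, 0, 0, 4, 2, 1].getD k 0)).val 11) (.c 1024, 0))) 8 = true := by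
  decide +kernel
theorem e8 : (oeq (.c 16, 0) (opr gg 165 11) && oeq (.c 0, 1) (opr gg 79 11)) = true := by decide +kernel
theorem e9 : allN (fun c => Nat.beq c 0 || (Nat.beq (opr gg (Ru.nu c).val 11).2 0 &&
  (Fm.not (.eq (opr gg (Ru.nu c).val 11).1 (.c 0))).one)) 8 = true := by decide +kernel

variable {T : TF (ZMod 2)} {G : Type u} [Group G] [Finite G] {Ω : Type*} [MulAction G Ω]
  {A : AD T G} {a b : Ω} {g g' s : G} {c : Co T}

variable (A s) in
def v2 : G := A.n1 * (s * A.n1)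
variable (A s) in
def v3 : G := A.ι (el T 1) * (v2 A s * A.ι (el T 1))
variable (A s) in
/-- the coset representatives -/
def rr (i : ℕ) : G := [1, v2 A s, v3 A s].getD i (v2 A s * v3 A s)

theorem x11 : el T 1 * el T 1 = 1 := one (.eq (.mul (.c 1) (.c 1)) (.c 0))
theorem cjx (A : AD T G) (c : Co T) : Cj A.toCS (A.ι (el T 1)) c (el T 1 * c * el T 1) :=
  cj_ι (by rw [mul_assoc, x11, mul_one])
theorem xQ (hc : c ∈ sQ1 T) : el T 1 * c * el T 1 ∈ sQ1 T := by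
  show (1 : ZMod 2) + c.a1 + 1 = 0
  rw [show c.a1 = 0 from hc]; rfl

theorem cjv2 (w : Sw A a b s) {x : Co T} {e : Ex} (he : e.ev x ∈ sQ1 T) :
    Cj A.toCS (v2 A s) (e.ev x) ((b1 e).ev x) := by
  have r := Fm.of_chk hK d5 (e.ev x).nu1
  simp only [g5, sem_imp, sem_inQ1, Fm.sem, Ex.ev] at r
  exact ((cj1 A he).comp (w.cj _)).comp (cj1 A (r.2 rfl))
theorem ev_b2 (x : Co T) (e : Ex) :
    (b2 e).ev x = el T 1 * (b1 (.c 1 * e * .c 1)).ev x * el T 1 := by simp only [b2, Ex.ev]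
theorem b1Q {x : Co T} (e : Ex) : (b1 e).ev x ∈ sQ1 T := by simp only [b1, Ex.ev]; rfl
theorem b2Q {x : Co T} (e : Ex) : (b2 e).ev x ∈ sQ1 T := by rw [ev_b2]; exact xQ (b1Q _)
theorem cjv3 (w : Sw A a b s) {x : Co T} {e : Ex} (he : e.ev x ∈ sQ1 T) :
    Cj A.toCS (v3 A s) (e.ev x) ((b2 e).ev x) := by
  have e1 : (Ex.c 1 * e * Ex.c 1).ev x = el T 1 * e.ev x * el T 1 := by simp only [Ex.ev]
  have k := cjv2 w (x := x) (e := .c 1 * e * .c 1) (by rw [e1]; exact xQ he)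
  rw [e1] at k
  rw [ev_b2]
  exact ((cjx A _).comp k).comp (cjx A _)
theorem cjr (w : Sw A a b s) {x : Co T} {e : Ex} (he : e.ev x ∈ sQ1 T) (i : ℕ) :
    Cj A.toCS (rr A s i) (e.ev x) ((bb i e).ev x) ∧ (bb i e).ev x ∈ sQ1 T := by
  rcases i with _ | _ | _ | i <;>
    simp only [rr, bb, List.getD_cons_zero, List.getD_cons_succ, List.getD_nil]
  exacts [⟨by simp [Cj], he⟩, ⟨cjv2 w he, b1Q e⟩, ⟨cjv3 w he, b2Q e⟩,
    ⟨(cjv3 w he).comp (cjv2 w (b2Q e)), b1Q _⟩]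

theorem ac2 (h : Geo A a b) (w : Sw A a b s) : Ac A a b (v2 A s) (Equiv.swap 0 2 * Equiv.swap 1 3) := by
  have := h.acn.mul (w.ac.mul h.acn)
  rwa [show Equiv.swap (1 : Fin 4) 2 * (Equiv.swap 0 1 * Equiv.swap 2 3 * Equiv.swap 1 2) =
    Equiv.swap 0 2 * Equiv.swap 1 3 by decide] at this
theorem ac3 (h : Geo A a b) (w : Sw A a b s) : Ac A a b (v3 A s) (Equiv.swap 0 3 * Equiv.swap 1 2) := by
  have := h.acx.mul ((ac2 h w).mul h.acx)
  rwa [show Equiv.swap (2 : Fin 4) 3 * (Equiv.swap 0 2 * Equiv.swap 1 3 * Equiv.swap 2 3) =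
    Equiv.swap 0 3 * Equiv.swap 1 2 by decide] at this
theorem ac23 (h : Geo A a b) (w : Sw A a b s) :
    Ac A a b (v2 A s * v3 A s) (Equiv.swap 0 1 * Equiv.swap 2 3) := by
  have := (ac2 h w).mul (ac3 h w)
  rwa [show Equiv.swap (0 : Fin 4) 2 * Equiv.swap 1 3 * (Equiv.swap 0 3 * Equiv.swap 1 2) =
    Equiv.swap 0 1 * Equiv.swap 2 3 by decide] at this

theorem q11 (w : Sw A a b s) : v2 A s * v2 A s = A.ι (el T 256) := by
  rw [← cj46 A, ← w.sq, inv_eq_of_mul_eq_one_right A.n1_sq, v2]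
  calc _ = A.n1 * (s * (A.n1 * A.n1) * s) * A.n1 := by group
    _ = _ := by rw [A.n1_sq, mul_one]
theorem q22 (w : Sw A a b s) : v3 A s * v3 A s = A.ι (el T 288) := by
  have e : el T 1 * el T 256 * el T 1 = el T 288 := by
    rw [ck_spec (T := T) (a := 1) (b := 256) (c := 257) (by decide +kernel),
      ck_spec (c := 288) (by decide +kernel)]
  rw [← (cjx A (el T 256)).cast rfl e, ← q11 w, inv_eq_of_mul_eq_one_right (x1_sq A), v3]
  calc _ = A.ι (el T 1) * (v2 A s * (A.ι (el T 1) * A.ι (el T 1)) * v2 A s) * A.ι (el T 1) := by group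
    _ = _ := by rw [x1_sq, mul_one]
theorem q33 (h : Geo A a b) (w : Sw A a b s) : v2 A s * v3 A s * (v2 A s * v3 A s) = A.ι (el T 96) := by
  obtain ⟨l, hl, e⟩ := (ac23 h w).eq h w.ac
  have r := Fm.of_chk hK e1 l
  simp only [m1, sem_all, sem_imp, sem_inQ1, Fm.sem, Ex.ev] at r
  rw [← r ⟨hl, fun n hn => ?_⟩, map_mul, map_mul, ← w.cj l, ← w.sq, e]
  · group
  have q : (Ex.c n).ev l ∈ sQ1 T := sem_inQ1.1
    (sem_all.1 (one (T := T) (Fm.all [1024, 2, 16] fun n => inQ1 (.c n))) n hn)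
  have k := (cjv3 w q).comp (cjv2 w (b2Q _))
  rw [Cj, e] at k
  refine A.inj ?_
  rw [map_mul, map_mul, ← k, ← w.cj (el T n)]
  simp only [Ex.ev]; group

theorem coc (h : Geo A a b) (w : Sw A a b s) : ∀ i < 4, ∀ k < 4,
    rr A s i * rr A s k = A.ι (el T (cc i k)) * rr A s (Nat.xor i k) := by
  have f : ∀ n, (Fm.and (inQ1 (.c n)) (.eq (b1 (.c n)) (.c n))).one = true →
      v2 A s * A.ι (el T n) = A.ι (el T n) * v2 A s := fun n k =>
    cj_comm ((cjv2 w (sem_inQ1.1 (one (T := T) _ k).1)).cast rfl (one (T := T) _ k).2)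
  have m : ∀ i j k, ck i j k = true → A.ι (el T i) * A.ι (el T j) = A.ι (el T k) := fun i j k e => by
    rw [← map_mul, ck_spec e]
  have f64 := f 64 (by decide +kernel)
  have f96 := f 96 (by decide +kernel)
  have f288 := f 288 (by decide +kernel)
  have h11 := q11 w
  have h22 := q22 w
  have h33 := q33 h w
  have z : A.ι (el T 0) = 1 := map_one _
  have h32 : v2 A s * v3 A s * v3 A s = A.ι (el T 288) * v2 A s := by rw [mul_assoc, h22, f288]
  have h31 : v2 A s * v3 A s * v2 A s = A.ι (el T 320) * v3 A s := by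
    refine mul_right_cancel (b := v3 A s) ?_
    rw [mul_assoc, h33, mul_assoc, h22, m _ _ 96 (by decide +kernel)]
  have h21 : v3 A s * v2 A s = A.ι (el T 64) * (v2 A s * v3 A s) := by
    refine mul_left_cancel (a := v2 A s) ?_
    rw [← mul_assoc, h31, ← mul_assoc, f64, mul_assoc, ← mul_assoc (v2 A s), h11, ← mul_assoc,
      m _ _ 320 (by decide +kernel)]
  have h13 : v2 A s * (v2 A s * v3 A s) = A.ι (el T 256) * v3 A s := by rw [← mul_assoc, h11]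
  have h23 : v3 A s * (v2 A s * v3 A s) = A.ι (el T 352) * v2 A s := by
    rw [← mul_assoc, h21, mul_assoc, h32, ← mul_assoc, m _ _ 352 (by decide +kernel)]
  have t0 : ∀ g : G, 1 * g = A.ι (el T 0) * g := fun g => by rw [z]
  have t1 : ∀ g : G, g * 1 = A.ι (el T 0) * g := fun g => by rw [z, mul_one, one_mul]
  intro i hi k hk
  interval_cases i <;> interval_cases k
  exacts [t0 _, t0 _, t0 _, t0 _, t1 _, h11.trans (mul_one _).symm, (one_mul _).symm.trans (t0 _), h13,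
    t1 _, h21, h22.trans (mul_one _).symm, h23, t1 _, h31, h32, h33.trans (mul_one _).symm]

variable (A s) in
/-- `x` is a normal form of `g` -/
def Rep (g : G) (x : Ex × ℕ) : Prop :=
  x.1.ev 1 ∈ sQ1 T ∧ x.2 < 4 ∧ g = A.ι (x.1.ev 1) * rr A s x.2

theorem ccQ : ∀ i < 4, ∀ k < 4, el T (cc i k) ∈ sQ1 T := fun i hi k hk => by
  interval_cases i <;> interval_cases k <;> rfl

theorem Rep.mul (h : Geo A a b) (w : Sw A a b s) {x y : Ex × ℕ} (hx : Rep A s g x) (hy : Rep A s g' y) :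
    Rep A s (g * g') (omul x y) := by
  obtain ⟨x1, x2, rfl⟩ := hx
  obtain ⟨y1, y2, rfl⟩ := hy
  obtain ⟨k1, k2⟩ := cjr w y1 x.2
  simp only [Rep, omul, Ex.ev]
  refine ⟨mul_mem (mul_mem x1 k2) (ccQ _ x2 _ y2), Nat.xor_lt_two_pow (n := 2) x2 y2, ?_⟩
  rw [map_mul, map_mul, ← k1, mul_assoc _ (A.ι _), ← coc h w _ x2 _ y2]; group

theorem Rep.one : Rep A s 1 (.c 0, 0) := ⟨rfl, by norm_num, by simp [rr, Ex.ev, el_zero]⟩

theorem Rep.eq {x y : Ex × ℕ} (hx : Rep A s g x) (hy : Rep A s g' y) (e : oeq x y = true) : g = g' := by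
  rw [oeq, Bool.and_eq_true] at e
  rw [hx.2.2, hy.2.2, Nat.eq_of_beq_eq_true e.1, show x.1.ev 1 = y.1.ev 1 from Fm.of_one e.2]

theorem Rep.x (h : Geo A a b) (w : Sw A a b s) {x : Ex × ℕ} (hx : Rep A s g x) :
    Rep A s (A.ι (el T 1) * g * (A.ι (el T 1))⁻¹) (xmul x) := by
  obtain ⟨x1, x2, rfl⟩ := hx
  have e : ∀ i < 4, el T ([0, 0, 0, 64].getD i 0) ∈ sQ1 T ∧ [0, 2, 1, 3].getD i 0 < 4 ∧
      A.ι (el T 1) * rr A s i * (A.ι (el T 1))⁻¹ =
        A.ι (el T ([0, 0, 0, 64].getD i 0)) * rr A s ([0, 2, 1, 3].getD i 0) := by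
    have z : A.ι (el T 0) = 1 := map_one _
    have xi := inv_eq_of_mul_eq_one_right (x1_sq A)
    have k2 : A.ι (el T 1) * v2 A s * (A.ι (el T 1))⁻¹ = v3 A s := by rw [xi, v3, mul_assoc]
    have k3 : A.ι (el T 1) * v3 A s * (A.ι (el T 1))⁻¹ = v2 A s := by
      rw [v3, ← mul_assoc, x1_sq, one_mul, mul_inv_cancel_right]
    intro i hi
    interval_cases i <;> refine ⟨rfl, by decide, ?_⟩ <;>
      simp only [rr, List.getD_cons_zero, List.getD_cons_succ, List.getD_nil, z, one_mul]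
    · group
    · exact k2
    · exact k3
    · refine Eq.trans ?_ (coc h w 2 (by norm_num) 1 (by norm_num))
      show _ = v3 A s * v2 A s
      calc _ = A.ι (el T 1) * v2 A s * (A.ι (el T 1))⁻¹ * (A.ι (el T 1) * v3 A s * (A.ι (el T 1))⁻¹) := by
            group
        _ = _ := by rw [k2, k3]
  obtain ⟨e1, e2, e3⟩ := e _ x2
  simp only [Rep, xmul, Ex.ev]
  refine ⟨mul_mem (xQ x1) e1, e2, ?_⟩
  rw [map_mul, ← cjx A, mul_assoc _ (A.ι _), ← e3]; group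

theorem Rep.pr (h : Geo A a b) (w : Sw A a b s) {g : ℕ → G} {t : ℕ → Ex × ℕ}
    (ht : ∀ k, Rep A s (g k) (t k)) (x n : ℕ) : Rep A s (pr g x n) (opr t x n) := by
  induction n with
  | zero => exact Rep.one
  | succ n ih =>
    rw [pr_succ]
    show Rep A s _ (cond (Nat.testBit x n) (omul (opr t x n) (t n)) (opr t x n))
    cases Nat.testBit x n
    · rw [cond_false, cond_false, mul_one]; exact ih
    · exact ih.mul h w (ht n)

variable (A s) in
/-- the generators of `W` -/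
def gG (k : ℕ) : G := A.ι (el T (gN k).1) * rr A s (gN k).2

theorem rep_g (k : ℕ) : Rep A s (gG A s k) (gg k) := by
  refine ⟨?_, Nat.le_of_ble_eq_true (?_ : Nat.ble ((gN k).2 + 1) 4 = true), rfl⟩
  · show (el T (gN k).1).a1 = 0
    rcases k with _ | _ | _ | _ | _ | _ | _ | _ | _ | _ | _ | k <;>
      simp only [gN, List.getD_cons_zero, List.getD_cons_succ, List.getD_nil] <;> rfl
  · rcases k with _ | _ | _ | _ | _ | _ | _ | _ | _ | _ | _ | k <;> rfl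

theorem rel_g (h : Geo A a b) (w : Sw A a b s) : Rel (gG A s) where
  cen i hi k hk := ((rep_g _).mul h w (rep_g _)).eq ((rep_g _).mul h w (rep_g _))
    (of_allN (of_allN e2 hi) hk)
  inv k hk := ((rep_g _).mul h w (rep_g _)).eq Rep.one (of_allN e3 hk)
  sq i hi := ((rep_g _).mul h w (rep_g _)).eq (Rep.pr h w (fun _ => rep_g _) _ _) (of_allN e4 hi)
  com i hi j hj := ((rep_g _).mul h w (rep_g _)).eq (((rep_g _).mul h w (rep_g _)).mul h w
    (Rep.pr h w (fun _ => rep_g _) _ _)) (of_allN (of_allN e5 hi) hj)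

theorem actX_of_gen {θ : W0 →* G} {α : MulAut W0}
    (h : ∀ k < 8, ∃ v ∈ V0, g * θ (Ru.gen k) * g⁻¹ = θ (α (Ru.gen k) * v)) : ActX θ g α := by
  let K : Subgroup W0 :=
    { carrier := {w | ∃ v ∈ V0, g * θ w * g⁻¹ = θ (α w * v)}
      one_mem' := ⟨1, one_mem _, by simp⟩
      mul_mem' := fun {x y} ⟨v, hv, e⟩ ⟨v', hv', e'⟩ => ⟨v * v', mul_mem hv hv', by
        rw [map_mul α, mul_assoc (α x), ← mul_assoc (α y), ← V0_comm hv, mul_assoc v, ← mul_assoc (α x),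
          map_mul θ (α x * v), ← e, ← e', map_mul]; group⟩
      inv_mem' := fun {x} ⟨v, hv, e⟩ => ⟨v⁻¹, inv_mem hv, by
        rw [map_inv α, ← mul_inv_rev, V0_comm hv, map_inv θ (α x * v), ← e, map_inv]; group⟩ }
  exact fun w => (eq_top_of_gen (K := K) h).ge (mem_top w)

theorem eq_top_of {F : Subgroup (Co T)} (h0 : el T 1 ∈ F) (h1 : el T 1024 ∈ F) (h2 : el T 16 ∈ F)
    (c : Co T) : c ∈ F := by
  have l := sem_all.1 (sem_all.1 (Fm.of_one (T := T) cW) H65.PA.gen (by simp [LB, H65.PA.gen]))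
  have k0 : ∀ w, (wd (.c 1) (.c 1024) (.c 16) w).ev (1 : Co T) ∈ F := fun w => by
    induction w with
    | nil => exact one_mem _
    | cons i w ih =>
      refine mul_mem ?_ ih
      rcases i with _ | _ | i
      exacts [h0, h1, h2]
  have s : ∀ {g}, g ∈ F → ∀ t, selC t g ∈ F := fun hg t => by
    unfold selC; split_ifs; exacts [hg, one_mem _]
  have k : ∀ {w n}, (Fm.eq (wd (.c 1) (.c 1024) (.c 16) w) (.c n)).sem (1 : Co T) →
      ∀ t, selC t (el T n) ∈ F := fun {w n} e => s ((show _ = el T n from e) ▸ k0 w)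
  simp only [List.forall_mem_cons, H65.PA.gen] at l
  obtain ⟨l1, l2, l3, l5, l6, l7, l8, l9, l11, -⟩ := l
  rw [← nf' hK c]
  simp only [apC, elT, H65.PA.gen]
  exact mul_mem (mul_mem (mul_mem (mul_mem (mul_mem (mul_mem (mul_mem (mul_mem (mul_mem (mul_mem
    (mul_mem (s h0 _) (k l1 _)) (k l2 _)) (k l3 _)) (s h2 _)) (k l5 _)) (k l6 _)) (k l7 _)) (k l8 _))
    (k l9 _)) (s h1 _)) (k l11 _)

variable (A a b) in
/-- the Sylow 2-subgroup -/
def TT : Subgroup G where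
  carrier := {g | ∃ π, π * (Equiv.swap 0 1 * Equiv.swap 2 3) = (Equiv.swap 0 1 * Equiv.swap 2 3) * π ∧
    Ac A a b g π}
  one_mem' := ⟨1, by simp, fun i => one_smul _ _⟩
  mul_mem' := fun ⟨_, e, h⟩ ⟨_, e', h'⟩ => ⟨_, Commute.mul_left e e', h.mul h'⟩
  inv_mem' := fun ⟨_, e, h⟩ => ⟨_, Commute.inv_left e, h.inv⟩

theorem ι_TT (h : Geo A a b) (c : Co T) : A.ι c ∈ TT A a b :=
  eq_top_of (F := (TT A a b).comap A.ι) ⟨_, by decide, h.acx⟩ ⟨_, by decide, h.acQ rfl⟩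
    ⟨_, by decide, h.acQ rfl⟩ c

/-- the permutations of the representatives -/
def pp (i : ℕ) : Equiv.Perm (Fin 4) := [1, Equiv.swap 0 2 * Equiv.swap 1 3,
  Equiv.swap 0 3 * Equiv.swap 1 2].getD i (Equiv.swap 0 1 * Equiv.swap 2 3)

theorem acr (h : Geo A a b) (w : Sw A a b s) (i : ℕ) : Ac A a b (rr A s i) (pp i) := by
  rcases i with _ | _ | _ | i
  exacts [fun i => one_smul _ _, ac2 h w, ac3 h w, ac23 h w]

theorem rr_TT (h : Geo A a b) (w : Sw A a b s) (i : ℕ) : rr A s i ∈ TT A a b := by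
  refine ⟨_, ?_, acr h w i⟩
  rcases i with _ | _ | _ | i <;> first | decide | rfl

theorem TT_dec (h : Geo A a b) (w : Sw A a b s) (hg : g ∈ TT A a b) :
    ∃ c, ∃ i : Fin 4, g = A.ι c * rr A s i := by
  obtain ⟨π, e, k⟩ := hg
  have : ∀ π : Equiv.Perm (Fin 4), π * (Equiv.swap 0 1 * Equiv.swap 2 3) =
      (Equiv.swap 0 1 * Equiv.swap 2 3) * π → ∃ i : Fin 4, π = pp i ∨ π = Equiv.swap 2 3 * pp i := by
    decide +kernel
  obtain ⟨i, rfl | rfl⟩ := this π e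
  · obtain ⟨c, -, e⟩ := k.eq h (acr h w i)
    exact ⟨c, i, e⟩
  · obtain ⟨c, -, e⟩ := k.eq h (h.acx.mul (acr h w i))
    exact ⟨c * el T 1, i, by rw [e, map_mul, mul_assoc]⟩

theorem card_TT (h : Geo A a b) (w : Sw A a b s) : Nat.card (TT A a b) = 2 ^ 14 := by
  have hb : Function.Bijective fun p : Co T × Fin 4 =>
      (⟨A.ι p.1 * rr A s p.2, mul_mem (ι_TT h _) (rr_TT h w _)⟩ : TT A a b) := by
    refine ⟨fun p q e => ?_, fun g => ?_⟩
    · replace e : A.ι p.1 * rr A s p.2 = A.ι q.1 * rr A s q.2 := congrArg Subtype.val e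
      have k : ∀ (c : Co T) (i : ℕ), (A.ι c * rr A s i)⁻¹ • a = pt A a b ((pp i)⁻¹ 0) := fun c i => by
        rw [mul_inv_rev, mul_smul, (h.sa _).2 (inv_mem (ι_G0 A c))]
        exact (acr h w i).inv 0
      have e1 := h.pt_inj ((k _ _).symm.trans ((congrArg (·⁻¹ • a) e).trans (k _ _)))
      have e2 : p.2 = q.2 := (by decide : ∀ i j : Fin 4, (pp i)⁻¹ 0 = (pp j)⁻¹ 0 → i = j) _ _ e1
      rw [e2] at e
      exact Prod.ext (A.inj (mul_right_cancel e)) e2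
    · obtain ⟨c, i, e⟩ := TT_dec h w g.2
      exact ⟨(c, i), Subtype.ext e.symm⟩
  rw [← Nat.card_eq_of_bijective _ hb, Nat.card_prod, H55.Oc.card_Co, Nat.card_zmod]
  simp

theorem mdX (h : Geo A a b) (w : Sw A a b s) : MdX (TT A a b) (rel_g h w).lift := by
  set θ := (rel_g h w).lift
  have rθ : ∀ x : W0, Rep A s (θ x) (opr gg x.val 11) := fun x => Rep.pr h w rep_g _ _
  have rg : ∀ k < 8, Rep A s (θ (Ru.gen k)) (gg k) := fun k hk => by
    rw [(rel_g h w).lift_gen (by omega)]; exact rep_g k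
  have rι : ∀ n, el T n ∈ sQ1 T → Rep A s (A.ι (el T n)) (.c n, 0) := fun n hn =>
    ⟨hn, by norm_num, (mul_one _).symm⟩
  have a1 : ActX θ (A.ι (el T 1)) (al 1) := actX_of_gen fun k hk =>
    ⟨1, one_mem _, by rw [mul_one]; exact ((rg k hk).x h w).eq (rθ _) (of_allN e6 hk)⟩
  have a2 : ActX θ (A.ι (el T 1024)) (al 2) := actX_of_gen fun k hk =>
    ⟨Ru.nu ([0, 0, 0, 4, 2, 1].getD k 0), (by revert k; decide +kernel), mul_inv_eq_iff_eq_mul.2
      (((rι 1024 rfl).mul h w (rg k hk)).eq ((rθ _).mul h w (rι 1024 rfl)) (of_allN e7 hk))⟩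
  have a0 : ∀ x, ActX θ (θ x) (al 0) := fun x => by
    have := acts_self θ x
    rw [← mul_one (MulAut.conj x), ← al_zero] at this
    exact this.actX'
  have e8' := Bool.and_eq_true _ _ ▸ e8
  have y4 : A.ι (el T 16) = θ (W0.ofN 165) := (rι 16 rfl).eq (rθ _) e8'.1
  have y2 : v2 A s = θ (W0.ofN 79) :=
    Rep.eq (x := (.c 0, 1)) ⟨rfl, by norm_num, by simp [rr, Ex.ev, el_zero]⟩ (rθ _) e8'.2
  let D : Subgroup G :=
    { carrier := {g | ∃ i < 8, ActX θ g (al i)}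
      one_mem' := ⟨0, by norm_num, al_zero ▸ ActX.one⟩
      mul_mem' := fun ⟨i, hi, e⟩ ⟨j, hj, e'⟩ => ⟨_, mulL_lt8 i hi j hj, al_mul i j ▸ e.mul e'⟩
      inv_mem' := fun ⟨i, hi, e⟩ => ⟨_, invL_lt8 i hi, al_inv i ▸ e.inv⟩ }
  have dι : ∀ c, A.ι c ∈ D := eq_top_of (F := D.comap A.ι) ⟨1, by norm_num, a1⟩ ⟨2, by norm_num, a2⟩
    ⟨0, by norm_num, y4 ▸ a0 _⟩
  have d2 : v2 A s ∈ D := ⟨0, by norm_num, y2 ▸ a0 _⟩
  have d3 : v3 A s ∈ D := mul_mem (dι _) (mul_mem d2 (dι _))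
  refine ⟨injective_of_V0 _ fun v hv e => ?_, card_TT h w, ?_, fun t ht => ?_, fun i hi => ?_⟩
  · obtain ⟨c, hc, rfl⟩ := (mem_V0_iff v).1 hv
    have k := of_allN e9 hc
    simp only [Bool.or_eq_true, Bool.and_eq_true] at k
    rcases k with k | ⟨k1, k2⟩
    · rw [Nat.eq_of_beq_eq_true k]; rfl
    · refine absurd (A.inj ?_) (Fm.of_one (T := T) k2)
      have := (rθ (Ru.nu c)).2.2
      rw [e, Nat.eq_of_beq_eq_true k1] at this
      exact ((mul_one _).symm.trans this.symm).trans (map_one _).symm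
  · rintro _ ⟨x, rfl⟩
    refine (eq_top_of_gen (K := (TT A a b).comap θ) fun k hk => ?_).ge (mem_top x)
    rw [mem_comap, (rg k hk).2.2]
    exact mul_mem (ι_TT h _) (rr_TT h w _)
  · obtain ⟨c, i, rfl⟩ := TT_dec h w ht
    refine D.mul_mem (dι c) ?_
    fin_cases i
    exacts [one_mem _, d2, d3, mul_mem d2 d3]
  · have m : ∀ {i j}, (∃ t ∈ TT A a b, ActX θ t (al i)) → (∃ t ∈ TT A a b, ActX θ t (al j)) →
        ∃ t ∈ TT A a b, ActX θ t (al (mulL i j)) := fun ⟨_, h1, e⟩ ⟨_, h2, e'⟩ =>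
      ⟨_, mul_mem h1 h2, al_mul _ _ ▸ e.mul e'⟩
    have l1 : ∃ t ∈ TT A a b, ActX θ t (al 1) := ⟨_, ι_TT h _, a1⟩
    have l2 : ∃ t ∈ TT A a b, ActX θ t (al 2) := ⟨_, ι_TT h _, a2⟩
    have l3 : ∃ t ∈ TT A a b, ActX θ t (al 3) := (by decide +kernel : mulL 2 1 = 3) ▸ m l2 l1
    have l4 : ∃ t ∈ TT A a b, ActX θ t (al 4) := (by decide +kernel : mulL 3 3 = 4) ▸ m l3 l3
    interval_cases i
    exacts [(by decide +kernel : mulL 1 1 = 0) ▸ m l1 l1, l1, l2, l3, l4,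
      (by decide +kernel : mulL 1 4 = 5) ▸ m l1 l4, (by decide +kernel : mulL 2 4 = 6) ▸ m l2 l4,
      (by decide +kernel : mulL 1 2 = 7) ▸ m l1 l2]

end H5.R3
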